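import Mathlib.GroupTheory.Perm.Sign
import Mathlib.GroupTheory.SpecificGroups.Dihedral
import Mathlib.Data.Fintype.Perm
import Mathlib.GroupTheory.Perm.Fin

/-! Facts on `S₄` used for S1829 (all by computation). -/

set_option autoImplicit false
set_option synthInstance.maxSize 2048
set_option synthInstance.maxHeartbeats 200000

namespace Cfsg.Agent.QT0.Wr

open Subgroup Equiv

abbrev P4 := Equiv.Perm (Fin 4)

def z0 : P4 := swap 0 1 * swap 2 3
def w0 : P4 := swap 0 1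
def v0 : P4 := swap 0 2 * swap 1 3

/-- the dihedral Sylow 2-subgroup -/
def D0 : Subgroup P4 where
  carrier := {p | p * z0 = z0 * p}
  one_mem' := by simp
  mul_mem' := by
    intro a b ha hb
    simp only [Set.mem_ofPred_eq] at *
    rw [mul_assoc, hb, ← mul_assoc, ha, mul_assoc]
  inv_mem' := by
    intro a ha
    simp only [Set.mem_ofPred_eq] at *
    exact (Commute.inv_left ha).eq

/-- the four-group generated by `z0` and `a` -/
def four (a : P4) (h1 : a * a = 1) (h2 : a * z0 = z0 * a) : Subgroup P4 where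
  carrier := {p | p = 1 ∨ p = z0 ∨ p = a ∨ p = a * z0}
  one_mem' := Or.inl rfl
  mul_mem' := by
    have hz : z0 * z0 = 1 := by decide
    have h3 : a * z0 * a = z0 := by rw [h2, mul_assoc, h1, mul_one]
    have h4 : a * (a * z0) = z0 := by rw [← mul_assoc, h1, one_mul]
    have h5 : a * z0 * z0 = a := by rw [mul_assoc, hz, mul_one]
    have h6 : z0 * (a * z0) = a := by rw [h2, ← mul_assoc, hz, one_mul]
    have h7 : a * z0 * (a * z0) = 1 := by rw [← mul_assoc, h3, hz]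
    rintro x y (rfl | rfl | rfl | rfl) (rfl | rfl | rfl | rfl) <;>
      simp only [Set.mem_ofPred_eq, one_mul, mul_one, hz, h1, ← h2, h3, h4, h5, h6, h7, true_or, or_true]
  inv_mem' := by
    have hz : z0 * z0 = 1 := by decide
    have h7 : a * z0 * (a * z0) = 1 := by
      rw [← mul_assoc, h2, mul_assoc z0, h1, mul_one, hz]
    rintro x (rfl | rfl | rfl | rfl) <;> simp only [Set.mem_ofPred_eq]
    · simp
    · rw [inv_eq_of_mul_eq_one_right hz]; simp
    · rw [inv_eq_of_mul_eq_one_right h1]; simp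
    · rw [inv_eq_of_mul_eq_one_right h7]; simp

def V0 : Subgroup P4 := four v0 (by decide) (by decide)
def W0 : Subgroup P4 := four w0 (by decide) (by decide)

def Z0 : Subgroup P4 where
  carrier := {p | p = 1 ∨ p = z0}
  one_mem' := Or.inl rfl
  mul_mem' := by
    have hz : z0 * z0 = 1 := by decide
    rintro x y (rfl | rfl) (rfl | rfl) <;> simp [hz]
  inv_mem' := by
    have hz : z0 * z0 = 1 := by decide
    rintro x (rfl | rfl)
    · simp
    · rw [inv_eq_of_mul_eq_one_right hz]; simp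

theorem mem_D0 {p : P4} : p ∈ D0 ↔ p * z0 = z0 * p := Iff.rfl
theorem mem_V0 {p : P4} : p ∈ V0 ↔ p = 1 ∨ p = z0 ∨ p = v0 ∨ p = v0 * z0 := Iff.rfl
theorem mem_W0 {p : P4} : p ∈ W0 ↔ p = 1 ∨ p = z0 ∨ p = w0 ∨ p = w0 * z0 := Iff.rfl
theorem mem_Z0 {p : P4} : p ∈ Z0 ↔ p = 1 ∨ p = z0 := Iff.rfl

instance : DecidablePred (· ∈ D0) := fun p => decidable_of_iff _ (mem_D0 (p := p)).symm
instance : DecidablePred (· ∈ V0) := fun p => decidable_of_iff _ (mem_V0 (p := p)).symm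
instance : DecidablePred (· ∈ W0) := fun p => decidable_of_iff _ (mem_W0 (p := p)).symm
instance : DecidablePred (· ∈ Z0) := fun p => decidable_of_iff _ (mem_Z0 (p := p)).symm

theorem card_V0 : Nat.card V0 = 4 := by
  rw [Nat.card_eq_fintype_card]; decide +kernel
theorem card_W0 : Nat.card W0 = 4 := by
  rw [Nat.card_eq_fintype_card]; decide +kernel

theorem V_le_D : V0 ≤ D0 := by
  have : ∀ p ∈ V0, p ∈ D0 := by decide +kernel
  exact this
theorem W_le_D : W0 ≤ D0 := by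
  have : ∀ p ∈ W0, p ∈ D0 := by decide +kernel
  exact this
theorem Z_le_V : Z0 ≤ V0 := by
  have : ∀ p ∈ Z0, p ∈ V0 := by decide +kernel
  exact this
theorem Z_le_W : Z0 ≤ W0 := by
  have : ∀ p ∈ Z0, p ∈ W0 := by decide +kernel
  exact this

theorem VW_split : ∀ p ∈ D0, ∀ q ∈ D0, p * p = 1 → q * q = 1 → p * q = q * p → p ∈ V0 ∨ q ∈ W0 := by
  decide +kernel

theorem four_in_D : ∀ d ∈ D0, d * d = 1 → d ≠ 1 → ∀ i ∈ D0, i * i = 1 → i ≠ 1 → i * d ≠ 1 → i * d = d * i →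
    ∀ j ∈ D0, j * j = 1 → j * d = d * j → j * i = i * j →
      j = 1 ∨ j * i = 1 ∨ j * d = 1 ∨ j * i * d = 1 := by
  decide +kernel

theorem norm_D : ∀ p : P4, (∀ d ∈ D0, p * d * p⁻¹ ∈ D0) → p ∈ D0 := by decide +kernel

theorem zz : z0 * z0 = 1 := by decide
theorem ww : w0 * w0 = 1 := by decide
theorem vv : v0 * v0 = 1 := by decide
theorem z_ne : z0 ≠ 1 := by decide
theorem z_mem_Z : z0 ∈ Z0 := Or.inr rfl
theorem z_mem_V : z0 ∈ V0 := by decide
theorem z_mem_W : z0 ∈ W0 := by decide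
theorem z_mem_D : z0 ∈ D0 := by decide
theorem v_mem_V : v0 ∈ V0 := by decide
theorem v_mem_D : v0 ∈ D0 := by decide
theorem w_mem_W : w0 ∈ W0 := by decide
theorem w_mem_D : w0 ∈ D0 := by decide
theorem w_not_V : w0 ∉ V0 := by decide
theorem v_not_W : v0 ∉ W0 := by decide
theorem sq_V : ∀ p ∈ V0, p * p = 1 := by decide +kernel
theorem sq_W : ∀ p ∈ W0, p * p = 1 := by decide +kernel
theorem pow4_D : ∀ p ∈ D0, p ^ 4 = 1 := by decide +kernel
theorem norm_V : ∀ p : P4, ∀ q ∈ V0, p * q * p⁻¹ ∈ V0 := by decide +kernel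
theorem norm_W : ∀ p ∈ D0, ∀ q ∈ W0, p * q * p⁻¹ ∈ W0 := by decide +kernel
theorem cent_V : ∀ p : P4, p * z0 = z0 * p → p * v0 = v0 * p → p ∈ V0 := by decide +kernel
theorem cent_W : ∀ p : P4, p * z0 = z0 * p → p * w0 = w0 * p → p ∈ W0 := by decide +kernel
theorem comm_V : ∀ p ∈ V0, ∀ q ∈ V0, p * q = q * p := by decide +kernel
theorem comm_W : ∀ p ∈ W0, ∀ q ∈ W0, p * q = q * p := by decide +kernel
theorem gen_D : ∀ p ∈ D0, ∃ a ∈ V0, ∃ b ∈ W0, p = a * b := by decide +kernel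
theorem conj_V : ∀ p ∈ V0, p ≠ 1 → ∀ q ∈ V0, q ≠ 1 → ∃ x : P4, x * p * x⁻¹ = q := by decide +kernel
theorem inv_D : ∀ p ∈ D0, p * p = 1 → p ∈ V0 ∨ p = w0 ∨ p = w0 * z0 := by decide +kernel
theorem v_mul_W : ∀ p ∈ D0, p ∉ W0 → v0 * p ∈ W0 := by decide +kernel
theorem v_act : ∀ p ∈ W0, v0 * p * v0⁻¹ = p ∨ v0 * p * v0⁻¹ = p * z0 := by decide +kernel
theorem vwv : v0 * w0 * v0⁻¹ = w0 * z0 := by decide
theorem vzv : v0 * z0 * v0⁻¹ = z0 := by decide
theorem vwzv : v0 * (w0 * z0) * v0⁻¹ = w0 := by decide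
theorem cenZ_D : ∀ p ∈ D0, p * v0 = v0 * p → p * w0 = w0 * p → p ∈ Z0 := by decide +kernel
theorem vw_sq : v0 * w0 * (v0 * w0) = z0 := by decide

end Cfsg.Agent.QT0.Wr
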