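import Cfsg.Agent.QT0.Wr0
import Cfsg.Agent.H70.CharP

/-! S1829, part A: a group with a Sylow 2-subgroup in a 2-local `S₄ ≀ 2`; weak closure and Sylow facts. -/

set_option autoImplicit false

namespace Cfsg.Agent.QT0.Wr

open Subgroup Cfsg Cfsg.Agent.H92 Cfsg.Agent.H70

variable {G : Type*} [Group G]

/-- the image of `X × Y` -/
def pr (e : P4 × P4 →* G) (X Y : Subgroup P4) : Subgroup G := (X.prod Y).map e

variable {e : P4 × P4 →* G} {t : G} {T : Subgroup G}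

theorem mem_pr {X Y : Subgroup P4} {g : G} : g ∈ pr e X Y ↔ ∃ p ∈ X, ∃ q ∈ Y, g = e (p, q) := by
  constructor
  · rintro ⟨⟨p, q⟩, ⟨hp, hq⟩, rfl⟩
    exact ⟨p, hp, q, hq, rfl⟩
  · rintro ⟨p, hp, q, hq, rfl⟩
    exact ⟨(p, q), ⟨hp, hq⟩, rfl⟩

theorem e_mem {X Y : Subgroup P4} {p q : P4} (hp : p ∈ X) (hq : q ∈ Y) : e (p, q) ∈ pr e X Y :=
  mem_pr.2 ⟨p, hp, q, hq, rfl⟩

theorem pr_mono {X Y X' Y' : Subgroup P4} (h : X ≤ X') (h' : Y ≤ Y') : pr e X Y ≤ pr e X' Y' :=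
  map_mono (prod_mono h h')

theorem e_mul (a b c d : P4) : e (a, b) * e (c, d) = e (a * c, b * d) := by
  rw [← map_mul]; rfl

theorem e_inv (a b : P4) : (e (a, b))⁻¹ = e (a⁻¹, b⁻¹) := by
  rw [← map_inv]; rfl

theorem e_one : e (1, 1) = 1 := map_one e

theorem e_cj (p q a b : P4) : e (p, q) * e (a, b) * (e (p, q))⁻¹ = e (p * a * p⁻¹, q * b * q⁻¹) := by
  rw [e_inv, e_mul, e_mul]

theorem e_comm {a b c d : P4} (h : a * c = c * a) (h' : b * d = d * b) :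
    e (a, b) * e (c, d) = e (c, d) * e (a, b) := by
  rw [e_mul, e_mul, h, h']

theorem e_split (p q : P4) : e (p, q) = e (p, 1) * e (1, q) := by rw [e_mul, mul_one, one_mul]

theorem norm_pr {X Y X' Y' : Subgroup P4} (h : ∀ p ∈ X', ∀ a ∈ X, p * a * p⁻¹ ∈ X)
    (h' : ∀ p ∈ Y', ∀ a ∈ Y, p * a * p⁻¹ ∈ Y) : pr e X' Y' ≤ normalizer (pr e X Y : Set G) := by
  rw [le_norm_iff_cj]
  intro g hg
  obtain ⟨p, hp, q, hq, rfl⟩ := mem_pr.1 hg
  rw [cj_le_iff]
  intro x hx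
  obtain ⟨a, ha, b, hb, rfl⟩ := mem_pr.1 hx
  rw [e_cj]
  exact e_mem (h p hp a ha) (h' q hq b hb)

theorem cent_pr {X Y X' Y' : Subgroup P4} (h : ∀ p ∈ X', ∀ a ∈ X, p * a = a * p)
    (h' : ∀ p ∈ Y', ∀ a ∈ Y, p * a = a * p) : pr e X' Y' ≤ centralizer (pr e X Y : Set G) := by
  intro g hg
  obtain ⟨p, hp, q, hq, rfl⟩ := mem_pr.1 hg
  rw [mem_centralizer_iff]
  intro x hx
  obtain ⟨a, ha, b, hb, rfl⟩ := mem_pr.1 hx
  exact (e_comm (h p hp a ha) (h' q hq b hb)).symm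

theorem pr_le {X Y : Subgroup P4} {H : Subgroup G} (h : ∀ p ∈ X, e (p, 1) ∈ H)
    (h' : ∀ q ∈ Y, e (1, q) ∈ H) : pr e X Y ≤ H := by
  intro g hg
  obtain ⟨p, hp, q, hq, rfl⟩ := mem_pr.1 hg
  rw [e_split]
  exact mul_mem (h p hp) (h' q hq)

theorem four_l {a : P4} {h1 : a * a = 1} {h2 : a * z0 = z0 * a} {H : Subgroup G} (hz : e (z0, 1) ∈ H)
    (ha : e (a, 1) ∈ H) : ∀ p ∈ four a h1 h2, e (p, 1) ∈ H := by
  rintro p (rfl | rfl | rfl | rfl)
  · rw [e_one]; exact one_mem _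
  · exact hz
  · exact ha
  · have := mul_mem ha hz
    rwa [e_mul, one_mul] at this

theorem four_r {a : P4} {h1 : a * a = 1} {h2 : a * z0 = z0 * a} {H : Subgroup G} (hz : e (1, z0) ∈ H)
    (ha : e (1, a) ∈ H) : ∀ p ∈ four a h1 h2, e (1, p) ∈ H := by
  rintro p (rfl | rfl | rfl | rfl)
  · rw [e_one]; exact one_mem _
  · exact hz
  · exact ha
  · have := mul_mem ha hz
    rwa [e_mul, one_mul] at this

theorem D_l {H : Subgroup G} (hz : e (z0, 1) ∈ H) (hv : e (v0, 1) ∈ H) (hw : e (w0, 1) ∈ H) :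
    ∀ p ∈ D0, e (p, 1) ∈ H := by
  intro p hp
  obtain ⟨a, ha, b, hb, rfl⟩ := gen_D p hp
  have := mul_mem (four_l hz hv a ha) (four_l hz hw b hb)
  rwa [e_mul, one_mul] at this

/-- elementary abelian of order 16 -/
def E16 (X : Subgroup G) : Prop := (∀ x ∈ X, x * x = 1) ∧ Nat.card X = 16

theorem E16.cj {X : Subgroup G} (h : E16 X) (g : G) : E16 (cj g X) := by
  refine ⟨fun x hx => ?_, by rw [card_cj, h.2]⟩
  have := h.1 _ (mem_cj.1 hx)
  have h2 : x * x = g * ((g⁻¹ * x * g) * (g⁻¹ * x * g)) * g⁻¹ := by group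
  rw [h2, this]; group

theorem comm_of_sq {X : Subgroup G} (h : ∀ x ∈ X, x * x = 1) {x y : G} (hx : x ∈ X) (hy : y ∈ X) :
    x * y = y * x := by
  have h1 := h _ (mul_mem hx hy)
  have h2 := h x hx
  have h3 := h y hy
  calc x * y = x * y * (y * y) * (x * x) := by rw [h2, h3, mul_one, mul_one]
    _ = x * (y * y) * (y * x) * x := by group
    _ = (x * x) * (y * x) * (x * x) * (y * y) := by
      rw [h3, h2, one_mul, mul_one, mul_one, mul_one]
      calc x * (y * x) * x = (x * y * (x * y)) * (y * x) * (x * y * (x * y)) * 1 := by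
            rw [h1, one_mul, mul_one, mul_one, mul_assoc, mul_assoc, h2, mul_one]
            calc x * y = (x * y)⁻¹ := (inv_eq_of_mul_eq_one_right h1).symm
              _ = y * x := by
                rw [mul_inv_rev, inv_eq_of_mul_eq_one_right h2, inv_eq_of_mul_eq_one_right h3]
        _ = y * x := by rw [h1]; group
    _ = y * x := by rw [h2, h3]; group

/-- `V₀` or `W₀` -/
def VW (Y : Subgroup P4) : Prop := Y = V0 ∨ Y = W0

theorem VW.le {Y : Subgroup P4} (h : VW Y) : Y ≤ D0 := by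
  rcases h with rfl | rfl
  exacts [V_le_D, W_le_D]

theorem VW.card {Y : Subgroup P4} (h : VW Y) : Nat.card Y = 4 := by
  rcases h with rfl | rfl
  exacts [card_V0, card_W0]

theorem VW.sq {Y : Subgroup P4} (h : VW Y) : ∀ p ∈ Y, p * p = 1 := by
  rcases h with rfl | rfl
  exacts [sq_V, sq_W]

theorem VW.norm {Y : Subgroup P4} (h : VW Y) : ∀ p ∈ D0, ∀ q ∈ Y, p * q * p⁻¹ ∈ Y := by
  rcases h with rfl | rfl
  exacts [fun p _ => norm_V p, norm_W]

theorem VW.not_le {Y : Subgroup P4} (h : VW Y) : ¬ D0 ≤ Y := by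
  rcases h with rfl | rfl
  exacts [fun h => w_not_V (h w_mem_D), fun h => v_not_W (h v_mem_D)]

theorem vwV : VW V0 := Or.inl rfl
theorem vwW : VW W0 := Or.inr rfl

theorem exists_VW (S : Set P4) (hD : ∀ p ∈ S, p ∈ D0) (h2 : ∀ p ∈ S, p * p = 1)
    (hc : ∀ p ∈ S, ∀ q ∈ S, p * q = q * p) : ∃ Y, VW Y ∧ ∀ p ∈ S, p ∈ Y := by
  by_cases h : ∀ p ∈ S, p ∈ V0
  · exact ⟨_, vwV, h⟩
  · push Not at h
    obtain ⟨p, hp, hpV⟩ := h
    refine ⟨_, vwW, fun q hq => ?_⟩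
    exact (VW_split p (hD p hp) q (hD q hq) (h2 p hp) (h2 q hq) (hc p hp q hq)).resolve_left hpV

/-- The configuration. -/
structure Hyp (e : P4 × P4 →* G) (t : G) (T : Subgroup G) : Prop where
  inj : Function.Injective e
  tt : t * t = 1
  sw : ∀ p q, t * e (p, q) = e (q, p) * t
  memT : ∀ g, g ∈ T ↔ ∃ p ∈ D0, ∃ q ∈ D0, g = e (p, q) ∨ g = e (p, q) * t
  syl : SylIn 2 T ⊤
  nA : ∀ g ∈ normalizer (pr e V0 V0 : Set G), ∃ p q, g = e (p, q) ∨ g = e (p, q) * t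

namespace Hyp

variable (h : Hyp e t T)
include h

theorem eq_iff {a b c d : P4} : e (a, b) = e (c, d) ↔ a = c ∧ b = d := by
  rw [h.inj.eq_iff, Prod.mk.injEq]

theorem eq_one {a b : P4} : e (a, b) = 1 ↔ a = 1 ∧ b = 1 := by
  rw [← e_one (e := e), h.eq_iff]

theorem t_inv : t⁻¹ = t := inv_eq_of_mul_eq_one_right h.tt

theorem t_cj (a b : P4) : t * e (a, b) * t⁻¹ = e (b, a) := by
  rw [h.sw, mul_inv_cancel_right]

theorem et_cj (p q a b : P4) :
    e (p, q) * t * e (a, b) * (e (p, q) * t)⁻¹ = e (p * b * p⁻¹, q * a * q⁻¹) := by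
  rw [← e_cj, ← h.t_cj a b]; group

theorem ne_t (a b c d : P4) : e (a, b) ≠ e (c, d) * t := by
  intro h1
  have h2 := h.et_cj c d z0 1
  rw [← h1, e_cj, h.eq_iff] at h2
  have h3 := h2.2
  rw [mul_one, mul_inv_cancel, eq_comm, mul_inv_eq_one, mul_eq_left] at h3
  exact z_ne h3

theorem mem_pr_iff {X Y : Subgroup P4} {p q : P4} : e (p, q) ∈ pr e X Y ↔ p ∈ X ∧ q ∈ Y := by
  refine ⟨fun h1 => ?_, fun h1 => e_mem h1.1 h1.2⟩
  obtain ⟨a, ha, b, hb, h2⟩ := mem_pr.1 h1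
  obtain ⟨rfl, rfl⟩ := h.eq_iff.1 h2
  exact ⟨ha, hb⟩

theorem et_not_mem {X Y : Subgroup P4} (p q : P4) : e (p, q) * t ∉ pr e X Y := by
  intro h1
  obtain ⟨a, -, b, -, h2⟩ := mem_pr.1 h1
  exact h.ne_t _ _ _ _ h2.symm

theorem J_le : pr e D0 D0 ≤ T := by
  intro g hg
  obtain ⟨p, hp, q, hq, rfl⟩ := mem_pr.1 hg
  exact (h.memT _).2 ⟨p, hp, q, hq, Or.inl rfl⟩

theorem t_mem : t ∈ T := (h.memT _).2 ⟨1, one_mem _, 1, one_mem _, Or.inr (by rw [e_one, one_mul])⟩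

theorem pgT : IsPGroup 2 T := h.syl.pgroup

theorem pg {X : Subgroup G} (hX : X ≤ T) : IsPGroup 2 X := h.pgT.to_le hX

theorem pr_le_T {X Y : Subgroup P4} (hX : X ≤ D0) (hY : Y ≤ D0) : pr e X Y ≤ T :=
  (pr_mono hX hY).trans h.J_le

theorem et_mul (a b c d : P4) : e (a, b) * t * (e (c, d) * t) = e (a * d, b * c) := by
  rw [← e_mul]
  calc e (a, b) * t * (e (c, d) * t) = e (a, b) * (t * e (c, d)) * t := by group
    _ = e (a, b) * e (d, c) * (t * t) := by rw [h.sw]; group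
    _ = _ := by rw [h.tt, mul_one]

theorem mul_mem_J {x y : G} (hx : x ∈ T) (hy : y ∈ T) (hx' : x ∉ pr e D0 D0) (hy' : y ∉ pr e D0 D0) :
    x * y ∈ pr e D0 D0 := by
  obtain ⟨a, ha, b, hb, rfl | rfl⟩ := (h.memT x).1 hx
  · exact (hx' (e_mem ha hb)).elim
  obtain ⟨c, hc, d, hd, rfl | rfl⟩ := (h.memT y).1 hy
  · exact (hy' (e_mem hc hd)).elim
  rw [h.et_mul]
  exact e_mem (mul_mem ha hd) (mul_mem hb hc)

theorem relJ : (pr e D0 D0).relIndex T = 2 := by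
  rw [relIndex, index_eq_two_iff]
  refine ⟨⟨t, h.t_mem⟩, fun b => ?_⟩
  have ht : t ∉ pr e D0 D0 := by
    have := h.et_not_mem (X := D0) (Y := D0) 1 1
    rwa [e_one, one_mul] at this
  simp only [mem_subgroupOf, coe_mul]
  by_cases hb : (b : G) ∈ pr e D0 D0
  · exact Or.inr ⟨hb, fun h1 => ht ((mul_mem_cancel_left hb).1 h1)⟩
  · exact Or.inl ⟨h.mul_mem_J b.2 h.t_mem hb ht, hb⟩

theorem T_norm {Y : Subgroup P4} (hY : ∀ p ∈ D0, ∀ q ∈ Y, p * q * p⁻¹ ∈ Y) :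
    T ≤ normalizer (pr e Y Y : Set G) := by
  rw [le_norm_iff_cj]
  intro g hg
  rw [cj_le_iff]
  intro x hx
  obtain ⟨a, ha, b, hb, rfl⟩ := mem_pr.1 hx
  obtain ⟨p, hp, q, hq, rfl | rfl⟩ := (h.memT g).1 hg
  · rw [e_cj]; exact e_mem (hY p hp a ha) (hY q hq b hb)
  · rw [h.et_cj]; exact e_mem (hY p hp b hb) (hY q hq a ha)

theorem T_normJ : T ≤ normalizer (pr e D0 D0 : Set G) :=
  h.T_norm fun _ hp _ hq => mul_mem (mul_mem hp hq) (inv_mem hp)

theorem T_normB : T ≤ normalizer (pr e W0 W0 : Set G) := h.T_norm norm_W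

theorem T_centz : T ≤ centralizer {e (z0, z0)} := by
  intro g hg
  rw [mem_centralizer_singleton_iff, ← mul_inv_eq_iff_eq_mul]
  obtain ⟨p, hp, q, hq, rfl | rfl⟩ := (h.memT g).1 hg
  · rw [e_cj, mem_D0.1 hp, mem_D0.1 hq, mul_inv_cancel_right, mul_inv_cancel_right]
  · rw [h.et_cj, mem_D0.1 hp, mem_D0.1 hq, mul_inv_cancel_right, mul_inv_cancel_right]

/-- an element of `T` centralizing a nontrivial `e (d, 1)` lies in `J` -/
theorem mem_J_of_comm {g : G} (hg : g ∈ T) {d : P4} (hd : d ≠ 1) (hc : g * e (d, 1) * g⁻¹ = e (d, 1)) :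
    g ∈ pr e D0 D0 := by
  obtain ⟨p, hp, q, hq, rfl | rfl⟩ := (h.memT g).1 hg
  · exact e_mem hp hq
  · rw [h.et_cj, h.eq_iff, mul_one, mul_inv_cancel] at hc
    exact (hd hc.1.symm).elim

theorem card_pr {X Y : Subgroup P4} : Nat.card (pr e X Y) = Nat.card X * Nat.card Y := by
  rw [pr, card_map_of_injective h.inj, Nat.card_congr (prodEquiv X Y).toEquiv, Nat.card_prod]

theorem e16 {X Y : Subgroup P4} (hX : VW X) (hY : VW Y) : E16 (pr e X Y) := by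
  refine ⟨fun x hx => ?_, by rw [h.card_pr, hX.card, hY.card]⟩
  obtain ⟨p, hp, q, hq, rfl⟩ := mem_pr.1 hx
  rw [e_mul, hX.sq p hp, hY.sq q hq, e_one]

theorem fst_VW {X : Subgroup G} (h2 : ∀ x ∈ X, x * x = 1) (hX : X ≤ pr e D0 D0) :
    ∃ Y Y', VW Y ∧ VW Y' ∧ X ≤ pr e Y Y' := by
  obtain ⟨Y, hY, hY'⟩ := exists_VW {p | ∃ q, e (p, q) ∈ X}
    (fun p ⟨q, hq⟩ => (h.mem_pr_iff.1 (hX hq)).1)
    (fun p ⟨q, hq⟩ => by have := h2 _ hq; rw [e_mul, h.eq_one] at this; exact this.1)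
    (fun p ⟨q, hq⟩ p' ⟨q', hq'⟩ => by
      have := comm_of_sq h2 hq hq'; rw [e_mul, e_mul, h.eq_iff] at this; exact this.1)
  obtain ⟨Z, hZ, hZ'⟩ := exists_VW {q | ∃ p, e (p, q) ∈ X}
    (fun p ⟨q, hq⟩ => (h.mem_pr_iff.1 (hX hq)).2)
    (fun p ⟨q, hq⟩ => by have := h2 _ hq; rw [e_mul, h.eq_one] at this; exact this.2)
    (fun p ⟨q, hq⟩ p' ⟨q', hq'⟩ => by
      have := comm_of_sq h2 hq hq'; rw [e_mul, e_mul, h.eq_iff] at this; exact this.2)
  refine ⟨Y, Z, hY, hZ, fun x hx => ?_⟩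
  obtain ⟨p, -, q, -, rfl⟩ := mem_pr.1 (hX hx)
  exact e_mem (hY' p ⟨q, hx⟩) (hZ' q ⟨p, hx⟩)

variable [Finite G]

theorem e16_eq {X : Subgroup G} (hX : E16 X) (hT : X ≤ T) : ∃ Y Y', VW Y ∧ VW Y' ∧ X = pr e Y Y' := by
  by_cases hJ : X ≤ pr e D0 D0
  · obtain ⟨Y, Y', hY, hY', hle⟩ := h.fst_VW hX.1 hJ
    exact ⟨Y, Y', hY, hY', eq_of_le_of_card_ge hle (by rw [(h.e16 hY hY').2, hX.2])⟩
  exfalso
  obtain ⟨g, hg, hg'⟩ := SetLike.not_le_iff_exists.1 hJ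
  obtain ⟨p, hp, q, hq, rfl | rfl⟩ := (h.memT g).1 (hT hg)
  · exact hg' (e_mem hp hq)
  obtain ⟨Y, Y', hY, -, hle⟩ := h.fst_VW (X := pr e D0 D0 ⊓ X) (fun x hx => hX.1 x hx.2) inf_le_left
  let δ : P4 →* G := e.comp ((MonoidHom.id P4).prod (MulAut.conj q).toMonoidHom)
  have h1 : pr e D0 D0 ⊓ X ≤ Y.map δ := by
    intro x hx
    obtain ⟨a, ha, b, hb, rfl⟩ := mem_pr.1 (hle hx)
    refine ⟨a, ha, ?_⟩
    have h2 := comm_of_sq hX.1 hg hx.2
    rw [← mul_inv_eq_iff_eq_mul, h.et_cj, h.eq_iff] at h2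
    rw [← h2.2]; rfl
  have h2 : Nat.card (pr e D0 D0 ⊓ X : Subgroup G) ≤ 4 := by
    exact (card_le_of_le h1).trans
      ((Nat.card_le_card_of_surjective _ (δ.subgroupMap_surjective Y)).trans hY.card.le)
  have h3 : (pr e D0 D0).relIndex X ≤ 2 := by
    rw [← h.relJ]
    exact relIndex_le_of_le_right hT (by rw [h.relJ]; norm_num)
  have h4 := card_mul_index ((pr e D0 D0).subgroupOf X)
  rw [hX.2, ← inf_subgroupOf_right, Nat.card_congr (subgroupOfEquivOfLe inf_le_right).toEquiv,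
    inf_subgroupOf_right] at h4
  change _ * (pr e D0 D0).relIndex X = 16 at h4
  nlinarith

end Hyp

theorem sup_VW : pr e V0 V0 ⊔ pr e W0 W0 = pr e D0 D0 := by
  refine le_antisymm (sup_le (pr_mono V_le_D V_le_D) (pr_mono W_le_D W_le_D)) fun g hg => ?_
  obtain ⟨p, hp, q, hq, rfl⟩ := mem_pr.1 hg
  obtain ⟨a, ha, b, hb, rfl⟩ := gen_D p hp
  obtain ⟨c, hc, d, hd, rfl⟩ := gen_D q hq
  rw [← e_mul]
  exact mul_mem_sup (e_mem ha hc) (e_mem hb hd)

theorem sup_VW' : pr e V0 W0 ⊔ pr e W0 V0 = pr e D0 D0 := by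
  refine le_antisymm (sup_le (pr_mono V_le_D W_le_D) (pr_mono W_le_D V_le_D)) (pr_le ?_ ?_)
  · intro p hp
    obtain ⟨a, ha, b, hb, rfl⟩ := gen_D p hp
    rw [← mul_one (1 : P4), ← e_mul]
    exact mul_mem_sup (e_mem ha (one_mem _)) (e_mem hb (one_mem _))
  · intro p hp
    obtain ⟨a, ha, b, hb, rfl⟩ := gen_D p hp
    rw [← mul_one (1 : P4), ← e_mul, sup_comm]
    exact mul_mem_sup (e_mem (one_mem _) ha) (e_mem (one_mem _) hb)

theorem sylIn_of_norm [Finite G] {R H : Subgroup G} (hRH : R ≤ H) (hR : IsPGroup 2 R)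
    (hn : ∀ g ∈ H, g ∈ normalizer (R : Set G) → g ∈ R) : SylIn 2 R H :=
  ⟨hRH, hR, fun _ hQH hQ hRQ =>
    (eq_of_inf_norm_le hQ hRQ fun g hg => hn g (hQH hg.1) hg.2).symm⟩

namespace Hyp

variable (h : Hyp e t T) [Finite G]
include h

omit [Finite G] in
theorem pr_inj {X Y X' Y' : Subgroup P4} (h1 : pr e X Y = pr e X' Y') : X = X' ∧ Y = Y' := by
  constructor <;> ext p
  · have := h.mem_pr_iff (X := X) (Y := Y) (p := p) (q := 1)
    rw [h1, h.mem_pr_iff] at this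
    simpa [one_mem] using this.symm
  · have := h.mem_pr_iff (X := X) (Y := Y) (p := 1) (q := p)
    rw [h1, h.mem_pr_iff] at this
    simpa [one_mem] using this.symm

omit [Finite G] in
theorem opp {X Y X' Y' : Subgroup P4} (hX : VW X) (hY : VW Y)
    (h1 : pr e X Y ⊔ pr e X' Y' = pr e D0 D0) : X ≠ X' ∧ Y ≠ Y' := by
  constructor <;> rintro rfl
  · have h2 : pr e D0 D0 ≤ pr e X ⊤ := h1 ▸ sup_le (pr_mono le_rfl le_top) (pr_mono le_rfl le_top)
    exact hX.not_le fun p hp => (h.mem_pr_iff.1 (h2 (e_mem hp (one_mem _)))).1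
  · have h2 : pr e D0 D0 ≤ pr e ⊤ Y := h1 ▸ sup_le (pr_mono le_top le_rfl) (pr_mono le_top le_rfl)
    exact hY.not_le fun p hp => (h.mem_pr_iff.1 (h2 (e_mem (one_mem _) hp))).2

theorem cj_pair {n : G} (hn : n ∈ normalizer (pr e D0 D0 : Set G)) {X Y X' Y' : Subgroup P4}
    (hX : VW X) (hY : VW Y) (hX' : VW X') (hY' : VW Y') (h1 : pr e X Y ⊔ pr e X' Y' = pr e D0 D0) :
    (cj n (pr e X Y) = pr e V0 V0 ∧ cj n (pr e X' Y') = pr e W0 W0) ∨
    (cj n (pr e X Y) = pr e W0 W0 ∧ cj n (pr e X' Y') = pr e V0 V0) ∨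
    (cj n (pr e X Y) = pr e V0 W0 ∧ cj n (pr e X' Y') = pr e W0 V0) ∨
    (cj n (pr e X Y) = pr e W0 V0 ∧ cj n (pr e X' Y') = pr e V0 W0) := by
  obtain ⟨A, B, hA, hB, e1⟩ := h.e16_eq ((h.e16 hX hY).cj n)
    ((cj_le_of_mem_norm hn (pr_mono hX.le hY.le)).trans h.J_le)
  obtain ⟨A', B', hA', hB', e2⟩ := h.e16_eq ((h.e16 hX' hY').cj n)
    ((cj_le_of_mem_norm hn (pr_mono hX'.le hY'.le)).trans h.J_le)
  have h2 := h.opp hA hB (X' := A') (Y' := B') (by rw [← e1, ← e2, ← cj_sup, h1, cj_eq_self hn])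
  rw [e1, e2]
  rcases hA with rfl | rfl <;> rcases hB with rfl | rfl <;> rcases hA' with rfl | rfl <;>
    rcases hB' with rfl | rfl <;> simp_all

theorem normJ_le : normalizer (pr e D0 D0 : Set G) ≤ T := by
  have hVW : V0 ≠ W0 := fun h1 => w_not_V (h1 ▸ w_mem_W)
  have s1 : ∀ n ∈ normalizer (pr e D0 D0 : Set G),
      cj (n * n) (pr e V0 V0) = pr e V0 V0 ∨ cj (n * n) (pr e V0 V0) = pr e W0 W0 := by
    intro n hn
    rw [cj_mul]
    have c1 := h.cj_pair hn vwV vwV vwW vwW sup_VW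
    have c2 := h.cj_pair hn vwV vwW vwW vwV sup_VW'
    rcases c1 with ⟨a, b⟩ | ⟨a, b⟩ | ⟨a, b⟩ | ⟨a, b⟩ <;> rw [a]
    · exact Or.inl a
    · exact Or.inl b
    · rcases c2 with ⟨c, d⟩ | ⟨c, d⟩ | ⟨c, d⟩ | ⟨c, d⟩
      · exact Or.inl c
      · exact Or.inr c
      · exact (hVW (h.pr_inj ((cj_inj n).1 (a.trans c.symm))).2).elim
      · exact (hVW (h.pr_inj ((cj_inj n).1 (a.trans d.symm))).1).elim
    · rcases c2 with ⟨c, d⟩ | ⟨c, d⟩ | ⟨c, d⟩ | ⟨c, d⟩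
      · exact Or.inr d
      · exact Or.inl d
      · exact (hVW (h.pr_inj ((cj_inj n).1 (a.trans d.symm))).1).elim
      · exact (hVW (h.pr_inj ((cj_inj n).1 (a.trans c.symm))).2).elim
  have s2 : ∀ n ∈ normalizer (pr e D0 D0 : Set G), n * n * (n * n) ∈ T := by
    intro n hn
    have hm := mul_mem hn hn
    have a1 : cj (n * n * (n * n)) (pr e V0 V0) = pr e V0 V0 := by
      rw [cj_mul]
      rcases h.cj_pair hm vwV vwV vwW vwW sup_VW with ⟨a, b⟩ | ⟨a, b⟩ | ⟨a, b⟩ | ⟨a, b⟩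
      · rw [a, a]
      · rw [a, b]
      · rcases s1 n hn with c | c
        · exact (hVW (h.pr_inj (c.symm.trans a)).2).elim
        · exact (hVW (h.pr_inj (a.symm.trans c)).1).elim
      · rcases s1 n hn with c | c
        · exact (hVW (h.pr_inj (c.symm.trans a)).1).elim
        · exact (hVW (h.pr_inj (a.symm.trans c)).2).elim
    have hm2 := mul_mem hm hm
    generalize n * n * (n * n) = m at a1 hm2
    obtain ⟨p, q, rfl | rfl⟩ := h.nA m (cj_eq_self_iff.1 a1)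
    · refine h.J_le (e_mem (norm_D p fun d hd => ?_) (norm_D q fun d hd => ?_))
      · have := conj_mem_of_mem_norm hm2 (e_mem (e := e) hd (one_mem D0))
        rw [e_cj, h.mem_pr_iff] at this; exact this.1
      · have := conj_mem_of_mem_norm hm2 (e_mem (e := e) (one_mem D0) hd)
        rw [e_cj, h.mem_pr_iff] at this; exact this.2
    · refine mul_mem (h.J_le (e_mem (norm_D p fun d hd => ?_) (norm_D q fun d hd => ?_))) h.t_mem
      · have := conj_mem_of_mem_norm hm2 (e_mem (e := e) (one_mem D0) hd)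
        rw [h.et_cj, h.mem_pr_iff] at this; exact this.1
      · have := conj_mem_of_mem_norm hm2 (e_mem (e := e) hd (one_mem D0))
        rw [h.et_cj, h.mem_pr_iff] at this; exact this.2
  have s3 : IsPGroup 2 (normalizer (pr e D0 D0 : Set G)) := by
    rw [isPGroup_iff_mem]
    intro n hn
    obtain ⟨k, hk⟩ := isPGroup_iff_mem.1 h.pgT _ (s2 n hn)
    refine ⟨k + 2, ?_⟩
    rw [pow_add, mul_comm, pow_mul, ← hk]
    congr 1
    rw [show 2 ^ 2 = 4 from rfl]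
    simp only [pow_succ, pow_zero, one_mul, mul_assoc]
  exact (h.syl.max _ le_top s3 h.T_normJ).le

theorem norm_J_of_le {g : G} (hg : cj g (pr e D0 D0) ≤ T) : g ∈ T := by
  refine h.normJ_le (mem_normalizer_of_cj_le ?_)
  conv_lhs => rw [← sup_VW, cj_sup]
  rw [← sup_VW, cj_sup] at hg
  obtain ⟨A, B, hA, hB, e1⟩ := h.e16_eq ((h.e16 vwV vwV).cj g) (le_sup_left.trans hg)
  obtain ⟨A', B', hA', hB', e2⟩ := h.e16_eq ((h.e16 vwW vwW).cj g) (le_sup_right.trans hg)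
  rw [e1, e2]
  exact sup_le (pr_mono hA.le hB.le) (pr_mono hA'.le hB'.le)

/-- weak closure of `A` and `B` -/
theorem wc {Y : Subgroup P4} (hY : VW Y) {g : G} (hg : cj g (pr e Y Y) ≤ T) :
    g ∈ normalizer (pr e Y Y : Set G) := by
  obtain ⟨A, B, hA, hB, e1⟩ := h.e16_eq ((h.e16 hY hY).cj g) hg
  have h1 : cj g⁻¹ (pr e D0 D0) ≤ normalizer (pr e Y Y : Set G) := by
    rw [← le_cj_iff, cj_normalizer, e1]
    exact norm_pr hA.norm hB.norm
  have hT := h.T_norm hY.norm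
  obtain ⟨m, hm, h2⟩ := sylIn_exists_cj_le (h.syl.mono hT le_top) h1 (isPGroup_cj _ (h.pg h.J_le))
  rw [← cj_mul] at h2
  have h3 := hT (h.norm_J_of_le h2)
  exact (inv_mem_iff).1 ((mul_mem_cancel_left hm).1 h3)

theorem nconj (g : G) : g * e (z0, 1) * g⁻¹ ≠ e (z0, z0) := by
  intro h1
  have h2 : cj g (pr e V0 V0) ≤ centralizer {e (z0, z0)} := by
    rw [cj_le_iff]
    intro x hx
    rw [mem_centralizer_singleton_iff, ← h1]
    have := comm_of_sq (h.e16 vwV vwV).1 hx (e_mem (e := e) z_mem_V (one_mem V0))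
    calc g * x * g⁻¹ * (g * e (z0, 1) * g⁻¹) = g * (x * e (z0, 1)) * g⁻¹ := by group
      _ = _ := by rw [this]; group
  obtain ⟨c, hc, h3⟩ := sylIn_exists_cj_le (h.syl.mono h.T_centz le_top) h2
    (isPGroup_cj _ (h.pg (h.pr_le_T V_le_D V_le_D)))
  rw [← cj_mul] at h3
  have h4 : c * g * e (z0, 1) * (c * g)⁻¹ = e (z0, z0) := by
    rw [mem_centralizer_singleton_iff] at hc
    calc c * g * e (z0, 1) * (c * g)⁻¹ = c * (g * e (z0, 1) * g⁻¹) * c⁻¹ := by group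
      _ = _ := by rw [h1, hc, mul_inv_cancel_right]
  obtain ⟨p, q, h5 | h5⟩ := h.nA _ (h.wc vwV h3) <;> rw [h5] at h4
  · rw [e_cj, h.eq_iff, mul_one, mul_inv_cancel] at h4
    exact z_ne h4.2.symm
  · rw [h.et_cj, h.eq_iff, mul_one, mul_inv_cancel] at h4
    exact z_ne h4.1.symm

omit [Finite G] h in
theorem J_cent : pr e D0 D0 ≤ centralizer {e (z0, 1)} := by
  intro g hg
  obtain ⟨p, hp, q, -, rfl⟩ := mem_pr.1 hg
  exact mem_centralizer_singleton_iff.2 (e_comm hp (by simp))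

theorem sylJ : SylIn 2 (pr e D0 D0) (centralizer {e (z0, 1)}) :=
  sylIn_of_norm J_cent (h.pg h.J_le) fun g hg hn =>
    h.mem_J_of_comm (h.normJ_le hn) z_ne
      (by rw [mem_centralizer_singleton_iff.1 hg, mul_inv_cancel_right])

omit [Finite G] in
theorem mem_J_of_normA1 {g : G} (hg : g ∈ T) (hn : g ∈ normalizer (pr e V0 W0 : Set G)) :
    g ∈ pr e D0 D0 := by
  obtain ⟨p, hp, q, hq, rfl | rfl⟩ := (h.memT g).1 hg
  · exact e_mem hp hq
  · have := conj_mem_of_mem_norm hn (e_mem (e := e) v_mem_V (one_mem W0))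
    rw [h.et_cj, h.mem_pr_iff] at this
    have h2 := norm_W _ (inv_mem hq) _ this.2
    rw [show q⁻¹ * (q * v0 * q⁻¹) * q⁻¹⁻¹ = v0 by group] at h2
    exact (v_not_W h2).elim

theorem sylJ1 : SylIn 2 (pr e D0 D0) (normalizer (pr e V0 W0 : Set G)) :=
  sylIn_of_norm (norm_pr vwV.norm norm_W) (h.pg h.J_le) fun _ hg hn =>
    h.mem_J_of_normA1 (h.normJ_le hn) hg

theorem nconj1 {g : G} (hg : g ∈ normalizer (pr e V0 W0 : Set G)) : g * e (z0, 1) * g⁻¹ ≠ e (1, z0) := by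
  intro h1
  have hJ : pr e D0 D0 ≤ normalizer (pr e V0 W0 : Set G) ⊓ centralizer {e (1, z0)} := by
    refine le_inf h.sylJ1.le fun x hx => ?_
    obtain ⟨p, -, q, hq, rfl⟩ := mem_pr.1 hx
    exact mem_centralizer_singleton_iff.2 (e_comm (by simp) hq)
  have h2 : cj g (pr e D0 D0) ≤ normalizer (pr e V0 W0 : Set G) ⊓ centralizer {e (1, z0)} := by
    refine le_inf (cj_le_of_mem hg h.sylJ1.le) ?_
    rw [cj_le_iff]
    intro x hx
    rw [mem_centralizer_singleton_iff, ← h1]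
    have := mem_centralizer_singleton_iff.1 (J_cent hx)
    calc g * x * g⁻¹ * (g * e (z0, 1) * g⁻¹) = g * (x * e (z0, 1)) * g⁻¹ := by group
      _ = _ := by rw [this]; group
  obtain ⟨c, hc, h3⟩ := sylIn_exists_cj_le (h.sylJ1.mono hJ inf_le_left) h2 (isPGroup_cj _ (h.pg h.J_le))
  rw [← cj_mul] at h3
  have h4 := h.mem_J_of_normA1 (h.norm_J_of_le (h3.trans h.J_le)) (mul_mem hc.1 hg)
  have h5 := mem_centralizer_singleton_iff.1 (J_cent h4)
  have h6 := mem_centralizer_singleton_iff.1 hc.2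
  have h7 : e (z0, 1) = e (1, z0) := by
    calc e (z0, 1) = c * g * e (z0, 1) * (c * g)⁻¹ := by rw [h5, mul_inv_cancel_right]
      _ = c * (g * e (z0, 1) * g⁻¹) * c⁻¹ := by group
      _ = _ := by rw [h1, h6, mul_inv_cancel_right]
  exact z_ne (h.eq_iff.1 h7).1

omit [Finite G] in
theorem cent_V1 {g : G} (hA : g ∈ normalizer (pr e V0 V0 : Set G)) (hg : g ∈ centralizer (pr e V0 ⊥ : Set G)) :
    ∃ p ∈ V0, ∃ q, g = e (p, q) := by
  have h1 := mem_centralizer_iff.1 hg _ (e_mem (e := e) z_mem_V (one_mem ⊥))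
  have h2 := mem_centralizer_iff.1 hg _ (e_mem (e := e) v_mem_V (one_mem ⊥))
  obtain ⟨p, q, rfl | rfl⟩ := h.nA g hA
  · rw [e_mul, e_mul, h.eq_iff] at h1 h2
    exact ⟨p, cent_V p h1.1.symm h2.1.symm, q, rfl⟩
  · rw [eq_comm, ← mul_inv_eq_iff_eq_mul, h.et_cj, h.eq_iff, mul_one, mul_inv_cancel] at h1
    exact (z_ne h1.1.symm).elim

theorem sylR : SylIn 2 (pr e V0 D0) (centralizer (pr e V0 ⊥ : Set G)) := by
  refine sylIn_of_norm (cent_pr comm_V ?_) (h.pg (h.pr_le_T V_le_D le_rfl)) fun g hg hn => ?_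
  · intro p _ a ha
    rw [mem_bot.1 ha, mul_one, one_mul]
  obtain ⟨p, hp, q, rfl⟩ := h.cent_V1 (h.wc vwV
    ((cj_le_of_mem_norm hn (pr_mono le_rfl V_le_D)).trans (h.pr_le_T V_le_D le_rfl))) hg
  refine e_mem hp (norm_D q fun d hd => ?_)
  have := conj_mem_of_mem_norm hn (e_mem (e := e) (one_mem V0) hd)
  rw [e_cj, h.mem_pr_iff] at this
  exact this.2

theorem centB (hz : IsChar 2 (centralizer {e (z0, z0)})) :
    centralizer (pr e W0 W0 : Set G) ≤ pr e W0 W0 := by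
  have hB := h.pr_le_T W_le_D W_le_D
  have h1 := hz.inf_centralizer (hB.trans h.T_centz) (h.pg hB)
  set X := centralizer {e (z0, z0)} ⊓ centralizer (pr e W0 W0 : Set G) with hX
  have h2 : pCoreOf 2 X ≤ T := le_sylIn_of_norm h.syl le_top (pCoreOf_isPGroup _)
    (norm_pCoreOf (norm_inf (norm_of_le h.T_centz) (norm_centralizer h.T_normB)))
  have h3 : pCoreOf 2 X ≤ pr e W0 W0 := by
    intro g hg
    have hc := (pCoreOf_le X hg).2
    have c1 := mem_centralizer_iff.1 hc _ (e_mem (e := e) w_mem_W (one_mem W0))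
    have c2 := mem_centralizer_iff.1 hc _ (e_mem (e := e) (one_mem W0) w_mem_W)
    obtain ⟨p, hp, q, hq, rfl⟩ := mem_pr.1 (h.mem_J_of_comm (h2 hg) (d := w0) (by decide)
      (by rw [← c1, mul_inv_cancel_right]))
    rw [e_mul, e_mul, h.eq_iff] at c1 c2
    exact e_mem (cent_W p hp c1.1.symm) (cent_W q hq c2.2.symm)
  intro g hg
  refine h3 (h1 ⟨⟨?_, hg⟩, cent_anti h3 hg⟩)
  exact mem_centralizer_singleton_iff.2 (mem_centralizer_iff.1 hg _ (e_mem z_mem_W z_mem_W)).symm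

theorem centU (hz : IsChar 2 (centralizer {e (z0, z0)})) :
    centralizer (pr e V0 Z0 : Set G) ≤ pr e V0 D0 := by
  have hU := h.pr_le_T V_le_D (Z_le_V.trans V_le_D)
  have hU2 : ∀ x ∈ pr e V0 Z0, x * x = 1 := fun x hx => (h.e16 vwV vwV).1 x (pr_mono le_rfl Z_le_V hx)
  have h1 := hz.inf_centralizer (hU.trans h.T_centz) (h.pg hU)
  have hX : centralizer {e (z0, z0)} ⊓ centralizer (pr e V0 Z0 : Set G) = centralizer (pr e V0 Z0 : Set G) := by
    refine inf_eq_right.2 fun g hg => ?_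
    exact mem_centralizer_singleton_iff.2 (mem_centralizer_iff.1 hg _ (e_mem z_mem_V z_mem_Z)).symm
  rw [hX] at h1
  set X := centralizer (pr e V0 Z0 : Set G) with hXd
  have hRX : pr e V0 D0 ≤ X := cent_pr comm_V fun p hp a ha => by
    rcases ha with rfl | rfl
    · simp
    · exact hp
  have hXC : X ≤ centralizer (pr e V0 ⊥ : Set G) := cent_anti (pr_mono le_rfl bot_le)
  have hS := h.sylR.mono hRX hXC
  have hY : pCoreOf 2 X ≤ pr e V0 D0 := pCoreOf_le_sylIn hS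
  have hUY : pr e V0 Z0 ≤ pCoreOf 2 X :=
    le_pCoreOf ((pr_mono le_rfl (Z_le_V.trans V_le_D)).trans hRX) (norm_of_cent le_rfl) (h.pg hU)
  intro g hg
  by_cases hv : e (1, v0) ∈ pCoreOf 2 X
  · have hA : pr e V0 V0 ≤ pCoreOf 2 X :=
      pr_le (fun p hp => hUY (e_mem hp (one_mem _))) (four_r (hUY (e_mem (one_mem _) z_mem_Z)) hv)
    obtain ⟨p, hp, q, rfl⟩ := h.cent_V1 (h.wc vwV ((cj_le_of_mem_norm (le_norm_pCoreOf X hg) hA).trans
      (hY.trans (h.pr_le_T V_le_D le_rfl)))) (hXC hg)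
    have := mem_centralizer_iff.1 hg _ (e_mem (e := e) (one_mem V0) z_mem_Z)
    rw [e_mul, e_mul, h.eq_iff] at this
    exact e_mem hp this.2.symm
  have key : ∀ y ∈ pCoreOf 2 X, ∀ y' ∈ pCoreOf 2 X, y ∉ pr e V0 Z0 → y' ∉ pr e V0 Z0 →
      y⁻¹ * y' ∈ pr e V0 Z0 := by
    have k0 : ∀ p q, e (p, q) ∈ pCoreOf 2 X → q ∈ V0 → q ∈ Z0 := by
      intro p q hpq hq
      have hp := (h.mem_pr_iff.1 (hY hpq)).1
      have h2 : e (1, q) ∈ pCoreOf 2 X := by
        have := mul_mem (inv_mem (hUY (e_mem hp (one_mem _)))) hpq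
        rwa [e_inv, e_mul, inv_mul_cancel, inv_one, one_mul] at this
      rcases hq with rfl | rfl | rfl | rfl
      · exact one_mem _
      · exact z_mem_Z
      · exact (hv h2).elim
      · have := mul_mem h2 (hUY (e_mem (one_mem _) z_mem_Z))
        rw [e_mul, mul_assoc, zz, mul_one, mul_one] at this
        exact (hv this).elim
    intro y hy y' hy' hn hn'
    have hyy := mul_mem (inv_mem hy) hy'
    obtain ⟨p, hp, q, hq, rfl⟩ := mem_pr.1 (hY hy)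
    obtain ⟨p', hp', q', hq', rfl⟩ := mem_pr.1 (hY hy')
    rw [e_inv, e_mul] at hyy ⊢
    refine e_mem (mul_mem (inv_mem hp) hp') (k0 _ _ hyy ?_)
    have k1 : ∀ q ∈ D0, ∀ q' ∈ D0, q ∉ V0 → q' ∉ V0 → q⁻¹ * q' ∈ V0 := by decide +kernel
    exact k1 q hq q' hq' (fun hh => hn (e_mem hp (k0 _ _ hy hh))) (fun hh => hn' (e_mem hp' (k0 _ _ hy' hh)))
  have hP : IsPGroup 2 X := by
    rw [isPGroup_iff_mem]
    intro x hx
    have h2 : x * x ∈ pCoreOf 2 X := by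
      refine h1 ⟨mul_mem hx hx, mem_centralizer_iff.2 fun y hy => ?_⟩
      have hc : ∀ u ∈ pr e V0 Z0, u * x = x * u := fun u hu => mem_centralizer_iff.1 hx u hu
      by_cases hyU : y ∈ pr e V0 Z0
      · rw [← mul_assoc, hc y hyU, mul_assoc, hc y hyU, mul_assoc]
      · have hy' := conj_mem_of_mem_norm (le_norm_pCoreOf (p := 2) X hx) hy
        have hn : x * y * x⁻¹ ∉ pr e V0 Z0 := fun hh => hyU (by
          have := hc _ hh
          rw [inv_mul_cancel_right, mul_right_inj] at this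
          rwa [this])
        have hu := key y hy _ hy' hyU hn
        have h3 := hc _ hu
        have h4 := hU2 _ hu
        generalize hu' : y⁻¹ * (x * y * x⁻¹) = u at h3 h4
        have h5 : x * y = y * u * x := by rw [← hu']; group
        calc y * (x * x) = y * (u * u) * (x * x) := by rw [h4, mul_one]
          _ = y * u * (u * x) * x := by group
          _ = y * u * (x * u) * x := by rw [h3]
          _ = (y * u * x) * (u * x) := by group
          _ = x * (y * u * x) := by nth_rewrite 1 [← h5]; group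
          _ = x * x * y := by rw [← h5, mul_assoc]
    obtain ⟨k, hk⟩ := isPGroup_iff_mem.1 (pCoreOf_isPGroup (p := 2) X) _ h2
    exact ⟨k + 1, by rw [pow_succ, mul_comm, pow_mul, pow_two, hk]⟩
  exact (hS.eq_of_isPGroup hP).ge hg

end Hyp

end Cfsg.Agent.QT0.Wr
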