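import Cfsg.Agent.QT0.WrA
import Cfsg.Agent.NG.CaseI1

/-! S1829, part B: transvections on `B` and the element `y` of order 3. -/

set_option autoImplicit false
set_option synthInstance.maxSize 2048

namespace Cfsg.Agent.QT0.Wr

open Subgroup Cfsg Cfsg.Agent.H92 Cfsg.Agent.H70

variable {G : Type*} [Group G] {e : P4 × P4 →* G} {t : G} {T : Subgroup G}

theorem cj_mul' (g a b : G) : g * (a * b) * g⁻¹ = g * a * g⁻¹ * (g * b * g⁻¹) := by group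

theorem cj_cj (g k a : G) : g * k * a * (g * k)⁻¹ = g * (k * a * k⁻¹) * g⁻¹ := by group

theorem cj_ne_one {g a : G} (h : a ≠ 1) : g * a * g⁻¹ ≠ 1 := by
  intro h1
  apply h
  calc a = g⁻¹ * (g * a * g⁻¹) * g := by group
    _ = 1 := by rw [h1]; group

theorem cj_of_comm {g a : G} (h : g * a = a * g) : g * a * g⁻¹ = a := by rw [h, mul_inv_cancel_right]

theorem comm_of_cj {g a : G} (h : g * a * g⁻¹ = a) : g * a = a * g := mul_inv_eq_iff_eq_mul.1 h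

theorem cj_inv_of {g a b : G} (h : g * a * g⁻¹ = b) : g⁻¹ * b * g⁻¹⁻¹ = a := by rw [← h]; group

/-- elements inducing transvections with centre `c` on `B` -/
def tvs (B : Subgroup G) (c : G) (hc : c ∈ B) (h2 : c * c = 1) (h1 : c ≠ 1) : Subgroup G where
  carrier := {g | g ∈ normalizer (B : Set G) ∧ ∀ b ∈ B, g * b * g⁻¹ = b ∨ g * b * g⁻¹ = b * c}
  one_mem' := ⟨one_mem _, fun b _ => Or.inl (by simp)⟩
  mul_mem' := by
    rintro g k ⟨hg, hg'⟩ ⟨hk, hk'⟩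
    have hgc : g * c * g⁻¹ = c := (hg' c hc).resolve_right (by rw [h2]; exact cj_ne_one h1)
    refine ⟨mul_mem hg hk, fun b hb => ?_⟩
    rw [cj_cj]
    rcases hk' b hb with a | a <;> rw [a]
    · exact hg' b hb
    · rw [cj_mul', hgc]
      rcases hg' b hb with a' | a' <;> rw [a']
      · exact Or.inr rfl
      · exact Or.inl (by rw [mul_assoc, h2, mul_one])
  inv_mem' := by
    rintro g ⟨hg, hg'⟩
    refine ⟨inv_mem hg, fun b hb => ?_⟩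
    have := hg' _ (conj_mem_of_mem_norm (inv_mem hg) hb)
    rw [show g * (g⁻¹ * b * g⁻¹⁻¹) * g⁻¹ = b by group] at this
    rcases this with a | a
    · exact Or.inl a.symm
    · right
      conv_rhs => rw [a, mul_assoc, h2, mul_one]

/-- `s` induces the transvection with centre `c` -/
def Tv (e : P4 × P4 →* G) (c s : G) : Prop :=
  ∃ m ∈ normalizer (pr e W0 W0 : Set G), c = m * e (z0, 1) * m⁻¹ ∧ s = m * e (v0, 1) * m⁻¹

theorem Tv.conj {c s n : G} (h : Tv e c s) (hn : n ∈ normalizer (pr e W0 W0 : Set G)) :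
    Tv e (n * c * n⁻¹) (n * s * n⁻¹) := by
  obtain ⟨m, hm, rfl, rfl⟩ := h
  exact ⟨n * m, mul_mem hn hm, (cj_cj _ _ _).symm, (cj_cj _ _ _).symm⟩

theorem tv1 : Tv e (e (z0, 1)) (e (v0, 1)) := ⟨1, one_mem _, by simp, by simp⟩

theorem v1_norm : e (v0, 1) ∈ normalizer (pr e W0 W0 : Set G) :=
  norm_pr norm_W norm_W (e_mem v_mem_D (one_mem D0))

theorem v2_norm : e (1, v0) ∈ normalizer (pr e W0 W0 : Set G) :=
  norm_pr norm_W norm_W (e_mem (one_mem D0) v_mem_D)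

theorem z1_mem : e (z0, 1) ∈ pr e W0 W0 := e_mem z_mem_W (one_mem _)
theorem z2_mem : e (1, z0) ∈ pr e W0 W0 := e_mem (one_mem _) z_mem_W

theorem v1_act : ∀ b ∈ pr e W0 W0, e (v0, 1) * b * (e (v0, 1))⁻¹ = b ∨
    e (v0, 1) * b * (e (v0, 1))⁻¹ = b * e (z0, 1) := by
  intro b hb
  obtain ⟨p, hp, q, -, rfl⟩ := mem_pr.1 hb
  rw [e_cj, e_mul, one_mul, inv_one, mul_one]
  rcases v_act p hp with a | a <;> rw [a]
  · exact Or.inl rfl
  · exact Or.inr rfl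

theorem Tv.mem {c s : G} (h : Tv e c s) : c ∈ pr e W0 W0 := by
  obtain ⟨m, hm, rfl, rfl⟩ := h
  exact conj_mem_of_mem_norm hm z1_mem

theorem Tv.norm {c s : G} (h : Tv e c s) : s ∈ normalizer (pr e W0 W0 : Set G) := by
  obtain ⟨m, hm, rfl, rfl⟩ := h
  exact mul_mem (mul_mem hm v1_norm) (inv_mem hm)

theorem Tv.sq {c s : G} (h : Tv e c s) : s * s = 1 := by
  obtain ⟨m, hm, rfl, rfl⟩ := h
  rw [← cj_mul', e_mul, vv, one_mul, e_one]; simp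

theorem Tv.act {c s : G} (h : Tv e c s) : ∀ b ∈ pr e W0 W0, s * b * s⁻¹ = b ∨ s * b * s⁻¹ = b * c := by
  obtain ⟨m, hm, rfl, rfl⟩ := h
  intro b hb
  have h1 : m * e (v0, 1) * m⁻¹ * b * (m * e (v0, 1) * m⁻¹)⁻¹ =
      m * (e (v0, 1) * (m⁻¹ * b * m) * (e (v0, 1))⁻¹) * m⁻¹ := by group
  rw [h1]
  rcases v1_act _ (conj_mem_of_mem_norm' hm hb) with a | a <;> rw [a]
  · left; group
  · right; group

namespace Hyp

variable (h : Hyp e t T)
include h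

theorem tv2 : Tv e (e (1, z0)) (e (1, v0)) := by
  have := (tv1 (e := e)).conj (h.T_normB h.t_mem)
  rwa [h.t_cj, h.t_cj] at this

theorem sqB : ∀ b ∈ pr e W0 W0, b * b = 1 := (h.e16 vwW vwW).1

theorem commB {a b : G} (ha : a ∈ pr e W0 W0) (hb : b ∈ pr e W0 W0) : a * b = b * a :=
  comm_of_sq h.sqB ha hb

theorem z1_ne : e (z0, 1) ≠ 1 := fun h1 => z_ne (h.eq_one.1 h1).1

theorem tv_ne {c s : G} (hc : Tv e c s) : c ≠ 1 := by
  obtain ⟨m, hm, rfl, rfl⟩ := hc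
  exact cj_ne_one h.z1_ne

theorem cen1 {n b : G} (hn : n ∈ normalizer (pr e W0 W0 : Set G)) (hb : b ∈ pr e W0 W0)
    (h1 : n * e (v0, 1) * n⁻¹ = e (v0, 1) * b) : n * e (z0, 1) * n⁻¹ = e (z0, 1) := by
  have hw := conj_mem_of_mem_norm hn (e_mem (e := e) w_mem_W (one_mem W0))
  have h2 : e (v0, 1) * e (w0, 1) * (e (v0, 1))⁻¹ = e (w0, 1) * e (z0, 1) := by
    rw [e_cj, e_mul, vwv]; simp
  have h3 : e (v0, 1) * (n * e (w0, 1) * n⁻¹) * (e (v0, 1))⁻¹ =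
      n * e (w0, 1) * n⁻¹ * (n * e (z0, 1) * n⁻¹) := by
    rw [← cj_mul', ← h2, ← cj_of_comm (h.commB hb hw), ← cj_cj, ← h1]; group
  rcases v1_act _ hw with a | a <;> rw [a] at h3
  · exact (cj_ne_one h.z1_ne (left_eq_mul.1 h3)).elim
  · exact (mul_left_cancel h3).symm

theorem cen {c s n b : G} (hc : Tv e c s) (hn : n ∈ normalizer (pr e W0 W0 : Set G)) (hb : b ∈ pr e W0 W0)
    (h1 : n * s * n⁻¹ = s * b) : n * c * n⁻¹ = c := by
  obtain ⟨m, hm, rfl, rfl⟩ := hc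
  have := h.cen1 (mul_mem (mul_mem (inv_mem hm) hn) hm) (conj_mem_of_mem_norm' hm hb) (by
    calc m⁻¹ * n * m * e (v0, 1) * (m⁻¹ * n * m)⁻¹ = m⁻¹ * (n * (m * e (v0, 1) * m⁻¹) * n⁻¹) * m := by group
      _ = _ := by rw [h1]; group)
  calc n * (m * e (z0, 1) * m⁻¹) * n⁻¹ = m * (m⁻¹ * n * m * e (z0, 1) * (m⁻¹ * n * m)⁻¹) * m⁻¹ := by group
    _ = _ := by rw [this]

variable [Finite G] (hz : IsChar 2 (centralizer {e (z0, z0)}))
include hz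

theorem uniq1 {n : G} (hn : n ∈ normalizer (pr e W0 W0 : Set G)) (h1 : n * e (z0, 1) * n⁻¹ = e (z0, 1)) :
    ∃ b ∈ pr e W0 W0, n * e (v0, 1) * n⁻¹ = e (v0, 1) * b := by
  set H := tvs (pr e W0 W0) (e (z0, 1)) z1_mem (h.sqB _ z1_mem) h.z1_ne with hH
  have hfix : ∀ g ∈ H, g * e (z0, 1) * g⁻¹ = e (z0, 1) := fun g hg =>
    (hg.2 _ z1_mem).resolve_right (by rw [h.sqB _ z1_mem]; exact cj_ne_one h.z1_ne)
  have hcj : ∀ k ∈ normalizer (pr e W0 W0 : Set G), k * e (z0, 1) * k⁻¹ = e (z0, 1) →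
      ∀ g ∈ H, k * g * k⁻¹ ∈ H := by
    intro k hk hk1 g hg
    refine ⟨mul_mem (mul_mem hk hg.1) (inv_mem hk), fun b hb => ?_⟩
    have h2 : k * g * k⁻¹ * b * (k * g * k⁻¹)⁻¹ = k * (g * (k⁻¹ * b * k) * g⁻¹) * k⁻¹ := by group
    rw [h2]
    rcases hg.2 _ (conj_mem_of_mem_norm' hk hb) with a | a <;> rw [a]
    · left; group
    · right; rw [cj_mul', hk1]; group
  have hP : IsPGroup 2 H := by
    rw [isPGroup_iff_mem]
    intro g hg
    have h2 : g * g ∈ pr e W0 W0 := by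
      refine h.centB hz (mem_centralizer_iff.2 fun b hb => (comm_of_cj ?_).symm)
      rw [cj_cj]
      rcases hg.2 b hb with a | a
      · rw [a, a]
      · rw [a, cj_mul', a, hfix g hg, mul_assoc, h.sqB _ z1_mem, mul_one]
    exact ⟨2, by rw [← h.sqB _ h2]; simp only [show 2 ^ 2 = 4 from rfl, pow_succ, pow_zero, one_mul, mul_assoc]⟩
  have hJ : H ≤ pr e D0 D0 := by
    refine le_sylIn_of_norm h.sylJ (fun g hg => mem_centralizer_singleton_iff.2 (comm_of_cj (hfix g hg))) hP ?_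
    rw [le_norm_iff_cj]
    intro j hj
    exact cj_le_iff.2 (hcj j (h.T_normB (h.J_le hj)) (cj_of_comm (mem_centralizer_singleton_iff.1 (J_cent hj))))
  have h3 := hcj n hn h1 _ (show e (v0, 1) ∈ H from ⟨v1_norm, v1_act⟩)
  obtain ⟨p, hp, q, hq, h4⟩ := mem_pr.1 (hJ h3)
  have hqW : q ∈ W0 := by
    have := h3.2 _ (e_mem (one_mem W0) w_mem_W)
    rw [h4, e_cj, e_mul, h.eq_iff, h.eq_iff, mul_one w0] at this
    exact cent_W q hq (comm_of_cj (this.elim And.right And.right))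
  have hpW : p ∉ W0 := by
    intro hpW
    have := conj_mem_of_mem_norm' hn (h4 ▸ e_mem (e := e) hpW hqW)
    rw [show n⁻¹ * (n * e (v0, 1) * n⁻¹) * n = e (v0, 1) by group, h.mem_pr_iff] at this
    exact v_not_W this.1
  refine ⟨e (v0 * p, q), e_mem (v_mul_W p hp hpW) hqW, ?_⟩
  rw [h4, e_mul, ← mul_assoc, vv, one_mul, one_mul]

theorem uniq {c s n : G} (hc : Tv e c s) (hn : n ∈ normalizer (pr e W0 W0 : Set G)) (h1 : n * c * n⁻¹ = c) :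
    ∃ b ∈ pr e W0 W0, n * s * n⁻¹ = s * b := by
  obtain ⟨m, hm, rfl, rfl⟩ := hc
  obtain ⟨b, hb, h2⟩ := h.uniq1 hz (mul_mem (mul_mem (inv_mem hm) hn) hm) (by
    calc m⁻¹ * n * m * e (z0, 1) * (m⁻¹ * n * m)⁻¹ = m⁻¹ * (n * (m * e (z0, 1) * m⁻¹) * n⁻¹) * m := by group
      _ = _ := by rw [h1]; group)
  refine ⟨m * b * m⁻¹, conj_mem_of_mem_norm hm hb, ?_⟩
  calc n * (m * e (v0, 1) * m⁻¹) * n⁻¹ = m * (m⁻¹ * n * m * e (v0, 1) * (m⁻¹ * n * m)⁻¹) * m⁻¹ := by group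
    _ = _ := by rw [h2]; group

theorem symm {c s c' s' : G} (hc : Tv e c s) (hc' : Tv e c' s') (h1 : s * c' * s⁻¹ = c') :
    s' * c * s'⁻¹ = c := by
  obtain ⟨b, hb, h2⟩ := h.uniq hz hc' hc.norm h1
  have h3 := h.cen hc (inv_mem hc'.norm) (conj_mem_of_mem_norm' hc.norm hb) (by
    calc s'⁻¹ * s * s'⁻¹⁻¹ = s'⁻¹ * (s * s' * s⁻¹) * s := by group
      _ = _ := by rw [h2]; group)
  have := cj_inv_of h3
  rwa [inv_inv] at this

end Hyp

/-- the even elements of `T` -/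
def T0 (h : Hyp e t T) : Subgroup G where
  carrier := {g | ∃ p ∈ D0, ∃ q ∈ D0, Equiv.Perm.sign p = Equiv.Perm.sign q ∧ (g = e (p, q) ∨ g = e (p, q) * t)}
  one_mem' := ⟨1, one_mem _, 1, one_mem _, rfl, Or.inl e_one.symm⟩
  mul_mem' := by
    rintro _ _ ⟨a, ha, b, hb, hs, rfl | rfl⟩ ⟨c, hc, d, hd, hs', rfl | rfl⟩
    · exact ⟨_, mul_mem ha hc, _, mul_mem hb hd, by simp [hs, hs'], Or.inl (e_mul _ _ _ _)⟩
    · exact ⟨_, mul_mem ha hc, _, mul_mem hb hd, by simp [hs, hs'], Or.inr (by rw [← mul_assoc, e_mul])⟩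
    · exact ⟨_, mul_mem ha hd, _, mul_mem hb hc, by simp [hs, hs'],
        Or.inr (by rw [mul_assoc, h.sw, ← mul_assoc, e_mul])⟩
    · exact ⟨_, mul_mem ha hd, _, mul_mem hb hc, by simp [hs, hs'], Or.inl (h.et_mul _ _ _ _)⟩
  inv_mem' := by
    rintro _ ⟨a, ha, b, hb, hs, rfl | rfl⟩
    · exact ⟨_, inv_mem ha, _, inv_mem hb, by simp [hs], Or.inl (e_inv _ _)⟩
    · exact ⟨_, inv_mem hb, _, inv_mem ha, by simp [hs], Or.inr (by rw [mul_inv_rev, h.t_inv, e_inv, h.sw])⟩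

namespace Hyp

variable (h : Hyp e t T)

theorem T0_le : T0 h ≤ T := by
  rintro _ ⟨a, ha, b, hb, -, h1⟩
  exact (h.memT _).2 ⟨a, ha, b, hb, h1⟩

theorem mem_T0 {p q : P4} (hp : p ∈ D0) (hq : q ∈ D0) :
    e (p, q) ∈ T0 h ↔ Equiv.Perm.sign p = Equiv.Perm.sign q := by
  refine ⟨?_, fun hs => ⟨p, hp, q, hq, hs, Or.inl rfl⟩⟩
  rintro ⟨a, -, b, -, hs, h1 | h1⟩
  · obtain ⟨rfl, rfl⟩ := h.eq_iff.1 h1
    exact hs
  · exact (h.ne_t _ _ _ _ h1).elim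

theorem t_mem_T0 : t ∈ T0 h := ⟨1, one_mem _, 1, one_mem _, rfl, Or.inr (by rw [e_one, one_mul])⟩

theorem w1_not : e (w0, 1) ∉ T0 h := by
  rw [h.mem_T0 w_mem_D (one_mem _)]; decide

theorem relT0 : (T0 h).relIndex T = 2 := by
  rw [relIndex, index_eq_two_iff']
  refine ⟨⟨e (w0, 1), h.J_le (e_mem w_mem_D (one_mem _))⟩, fun b => ?_⟩
  simp only [mem_subgroupOf, coe_mul]
  have key : ∀ p ∈ D0, ∀ q ∈ D0, Xor (e (w0, 1) * e (p, q) ∈ T0 h) (e (p, q) ∈ T0 h) := by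
    intro p hp q hq
    rw [e_mul, one_mul, h.mem_T0 (mul_mem w_mem_D hp) hq, h.mem_T0 hp hq]
    revert p q
    decide +kernel
  obtain ⟨p, hp, q, hq, h1 | h1⟩ := (h.memT _).1 b.2 <;> rw [h1]
  · exact key p hp q hq
  · rw [← mul_assoc, mul_mem_cancel_right h.t_mem_T0, mul_mem_cancel_right h.t_mem_T0]
    exact key p hp q hq

include h
variable [Finite G] (hz : IsChar 2 (centralizer {e (z0, z0)})) (hO : pResidual 2 G = ⊤)

omit hz in
include hO in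
theorem transfer {S Q : Subgroup G} {y : G} (hy : y * y = 1) (hS : S ≤ T) (h2 : S.relIndex T = 2)
    (hQ : IsPGroup 2 Q) (hc : ∀ q ∈ Q, q * y = y * q) : ∃ g : G, g * y * g⁻¹ ∈ S ∧ cj g Q ≤ T := by
  obtain ⟨g, h3, h4⟩ := NG.CI.ext_transfer (S := T) hy (hO ▸ mem_top y)
    (by rw [← relIndex_top_right]; exact h.syl.not_dvd_relIndex) hS h2 hQ hc
  exact ⟨g⁻¹, by rwa [inv_inv], h4⟩

include hz hO

theorem exists_odd : ∃ c s, Tv e c s ∧ c ∉ T0 h := by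
  by_contra hall
  push Not at hall
  have hw : e (w0, 1) ∈ pr e W0 W0 := e_mem w_mem_W (one_mem _)
  obtain ⟨n, hn0, hn⟩ := h.transfer hO (h.sqB _ hw) h.T0_le h.relT0 (h.pg (h.pr_le_T W_le_D W_le_D))
    fun q hq => h.commB hq hw
  replace hn := h.wc vwW hn
  have hZ : ∀ m ∈ normalizer (pr e W0 W0 : Set G), ∀ x ∈ pr e Z0 Z0, m * x * m⁻¹ ∈ T0 h := by
    intro m hm
    have : pr e Z0 Z0 ≤ cj m⁻¹ (T0 h) := by
      refine pr_le ?_ ?_ <;> rintro _ (rfl | rfl)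
      · rw [e_one]; exact one_mem _
      · rw [mem_cj, inv_inv]; exact hall _ _ (tv1.conj hm)
      · rw [e_one]; exact one_mem _
      · rw [mem_cj, inv_inv]; exact hall _ _ (h.tv2.conj hm)
    intro x hx
    have h1 := this hx
    rwa [mem_cj, inv_inv] at h1
  by_cases hc : ∃ c s, Tv e c s ∧ c ∉ pr e Z0 Z0
  · obtain ⟨c, s, hc, hcZ⟩ := hc
    have h1 := hall _ _ (hc.conj (inv_mem hn))
    obtain ⟨p, hp, q, hq, h2⟩ := mem_pr.1 (conj_mem_of_mem_norm hn hw)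
    obtain ⟨a, ha, b, hb, rfl⟩ := mem_pr.1 hc.mem
    have h3 := hall _ _ hc
    rw [h2, h.mem_T0 (W_le_D hp) (W_le_D hq)] at hn0
    rw [h.mem_T0 (W_le_D ha) (W_le_D hb)] at h3
    rw [h.mem_pr_iff] at hcZ
    have key : ∀ p ∈ W0, ∀ q ∈ W0, Equiv.Perm.sign p = Equiv.Perm.sign q → ∀ a ∈ W0, ∀ b ∈ W0,
        Equiv.Perm.sign a = Equiv.Perm.sign b → ¬ (a ∈ Z0 ∧ b ∈ Z0) →
        (p ∈ Z0 ∧ q ∈ Z0) ∨ (p * a⁻¹ ∈ Z0 ∧ q * b⁻¹ ∈ Z0) := by decide +kernel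
    apply h.w1_not
    rw [← cj_inv_of h2]
    rcases key p hp q hq hn0 a ha b hb h3 hcZ with k | k
    · exact hZ _ (inv_mem hn) _ (e_mem k.1 k.2)
    · have := mul_mem (hZ _ (inv_mem hn) _ (e_mem (e := e) k.1 k.2)) h1
      rwa [← cj_mul', e_mul, inv_mul_cancel_right, inv_mul_cancel_right] at this
  push Not at hc
  have h12 : ∀ c s, Tv e c s → c = e (z0, 1) ∨ c = e (1, z0) := by
    intro c s hcs
    obtain ⟨a, ha, b, hb, h1⟩ := mem_pr.1 (hc c s hcs)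
    rcases ha with rfl | rfl <;> rcases hb with rfl | rfl
    · exact (h.tv_ne hcs (h1.trans e_one)).elim
    · exact Or.inr h1
    · exact Or.inl h1
    · obtain ⟨m, -, h2, -⟩ := hcs
      exact (h.nconj m (h2.symm.trans h1)).elim
  have fin : ∀ n ∈ normalizer (pr e W0 W0 : Set G), n * e (w0, 1) * n⁻¹ ∈ T0 h →
      n * e (z0, 1) * n⁻¹ ≠ e (z0, 1) := by
    intro n hn hn0 h1
    have h2 : n * e (1, z0) * n⁻¹ = e (1, z0) := by
      refine (h12 _ _ (h.tv2.conj hn)).resolve_left fun h2 => ?_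
      rw [← h1, mul_left_inj, mul_right_inj, h.eq_iff] at h2
      exact z_ne h2.2
    obtain ⟨b1, hb1, h3⟩ := h.uniq hz tv1 hn h1
    obtain ⟨b2, hb2, h4⟩ := h.uniq hz h.tv2 hn h2
    have hβ := conj_mem_of_mem_norm hn hw
    have h5 : e (v0, 1) * (n * e (w0, 1) * n⁻¹) * (e (v0, 1))⁻¹ = n * e (w0, 1) * n⁻¹ * e (z0, 1) := by
      have a : e (v0, 1) * e (w0, 1) * (e (v0, 1))⁻¹ = e (w0, 1) * e (z0, 1) := by
        rw [e_cj, e_mul, vwv]; simp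
      conv_rhs => rw [← h1, ← cj_mul', ← a]
      rw [← cj_of_comm (h.commB hb1 hβ), ← cj_cj, ← h3]; group
    have h6 : e (1, v0) * (n * e (w0, 1) * n⁻¹) * (e (1, v0))⁻¹ = n * e (w0, 1) * n⁻¹ := by
      have a : e (1, v0) * e (w0, 1) * (e (1, v0))⁻¹ = e (w0, 1) := by
        rw [e_cj]; simp
      conv_rhs => rw [← a]
      rw [← cj_of_comm (h.commB hb2 hβ), ← cj_cj, ← h4]; group
    obtain ⟨p, hp, q, hq, h7⟩ := mem_pr.1 hβ
    rw [h7, h.mem_T0 (W_le_D hp) (W_le_D hq)] at hn0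
    rw [h7, e_cj, e_mul, h.eq_iff] at h5
    rw [h7, e_cj, h.eq_iff] at h6
    have key : ∀ p ∈ W0, ∀ q ∈ W0, Equiv.Perm.sign p = Equiv.Perm.sign q → v0 * p * v0⁻¹ = p * z0 →
        v0 * q * v0⁻¹ ≠ q := by decide +kernel
    exact key p hp q hq hn0 h5.1 h6.2
  rcases h12 _ _ (tv1.conj hn) with h1 | h1
  · exact fin n hn hn0 h1
  · refine fin (t * n) (mul_mem (h.T_normB h.t_mem) hn) ?_ (by rw [cj_cj, h1, h.t_cj])
    rw [cj_cj]
    exact mul_mem (mul_mem h.t_mem_T0 hn0) (inv_mem h.t_mem_T0)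

theorem exists_d : ∃ ζ ∈ Z0, ∃ s, Tv e (e (ζ, w0)) s := by
  obtain ⟨c, s, hc, h0⟩ := h.exists_odd hz hO
  obtain ⟨p, hp, q, hq, rfl⟩ := mem_pr.1 hc.mem
  rw [h.mem_T0 (W_le_D hp) (W_le_D hq)] at h0
  have key : ∀ p ∈ W0, ∀ q ∈ W0, Equiv.Perm.sign p ≠ Equiv.Perm.sign q →
      (p ∈ Z0 ∧ (q = w0 ∨ q = w0 * z0)) ∨ (q ∈ Z0 ∧ (p = w0 ∨ p = w0 * z0)) := by decide +kernel
  have k2 : ∀ p ∈ Z0, ∀ q s, (q = w0 ∨ q = w0 * z0) → Tv e (e (p, q)) s → ∃ ζ ∈ Z0, ∃ s, Tv e (e (ζ, w0)) s := by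
    rintro p hp _ s (rfl | rfl) hc
    · exact ⟨p, hp, s, hc⟩
    · have := hc.conj v2_norm
      rw [e_cj, vwzv, one_mul, inv_one, mul_one] at this
      exact ⟨p, hp, _, this⟩
  rcases key p hp q hq h0 with k | k
  · exact k2 p k.1 q s k.2 hc
  · have := hc.conj (h.T_normB h.t_mem)
    rw [h.t_cj] at this
    exact k2 q k.1 p _ k.2 this

theorem exists_y : ∃ ζ ∈ Z0, ∃ u ∈ Z0, ∃ b ∈ Z0, ∃ y : G, y ^ 3 = 1 ∧ e (1, v0) * y * (e (1, v0))⁻¹ = y⁻¹ ∧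
    y * e (z0, 1) * y⁻¹ = e (z0, 1) ∧ y * e (w0, u) * y⁻¹ = e (w0, u) ∧ y * e (v0, b) * y⁻¹ = e (v0, b) ∧
    y * e (1, z0) * y⁻¹ = e (ζ, w0) ∧ y * e (ζ, w0) * y⁻¹ = e (ζ, w0 * z0) := by
  obtain ⟨ζ, hζ, s, hs⟩ := h.exists_d hz hO
  have hd := hs.mem
  have hζv : v0 * ζ * v0⁻¹ = ζ := by
    rcases hζ with rfl | rfl
    exacts [by simp, vzv]
  have hζ2 : ζ * ζ = 1 := sq_W _ (Z_le_W hζ)
  have v1d : e (v0, 1) * e (ζ, w0) * (e (v0, 1))⁻¹ = e (ζ, w0) := by rw [e_cj, hζv]; simp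
  have v2d : e (1, v0) * e (ζ, w0) * (e (1, v0))⁻¹ = e (ζ, w0 * z0) := by rw [e_cj, vwv]; simp
  have s1 : s * e (z0, 1) * s⁻¹ = e (z0, 1) := h.symm hz tv1 hs v1d
  have s2 : s * e (1, z0) * s⁻¹ = e (1, z0) * e (ζ, w0) := by
    refine (hs.act _ z2_mem).resolve_left fun h1 => ?_
    have := h.symm hz hs h.tv2 h1
    rw [v2d, h.eq_iff] at this
    exact absurd this.2 (by decide)
  have s3 : s * e (ζ, w0) * s⁻¹ = e (ζ, w0) :=
    (hs.act _ hd).resolve_right (by rw [h.sqB _ hd]; exact cj_ne_one (h.tv_ne hs))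
  obtain ⟨u, hu, s4⟩ : ∃ u ∈ Z0, s * e (w0, u) * s⁻¹ = e (w0, u) := by
    rcases hs.act _ (e_mem w_mem_W (one_mem W0)) with a | a
    · exact ⟨1, one_mem _, a⟩
    · refine ⟨z0, z_mem_Z, ?_⟩
      rw [e_split, cj_mul', a, s2, h.commB z2_mem hd, mul_assoc, ← mul_assoc (e (ζ, w0)), h.sqB _ hd, one_mul]
  have huv : v0 * u * v0⁻¹ = u := by
    rcases hu with rfl | rfl
    exacts [by simp, vzv]
  have hw' : e (w0, u) ∈ pr e W0 W0 := e_mem w_mem_W (Z_le_W hu)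
  set k := e (1, v0) * s with hk
  have hkN : k ∈ normalizer (pr e W0 W0 : Set G) := mul_mem v2_norm hs.norm
  have k1 : k * e (z0, 1) * k⁻¹ = e (z0, 1) := by rw [hk, cj_cj, s1, e_cj]; simp
  have k2 : k * e (1, z0) * k⁻¹ = e (ζ, w0) := by
    rw [hk, cj_cj, s2, e_mul, e_cj, show v0 * (z0 * w0) * v0⁻¹ = w0 by decide]; simp
  have k3 : k * e (ζ, w0) * k⁻¹ = e (ζ, w0 * z0) := by rw [hk, cj_cj, s3, v2d]
  have k4 : k * e (w0, u) * k⁻¹ = e (w0, u) := by rw [hk, cj_cj, s4, e_cj, huv]; simp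
  have k5 : k * e (ζ, w0 * z0) * k⁻¹ = e (1, z0) := by
    rw [← mul_one ζ, ← e_mul, cj_mul', k3, k2, e_mul, hζ2, show w0 * z0 * w0 = z0 by decide]
  have gen : ∀ H : Subgroup G, e (z0, 1) ∈ H → e (1, z0) ∈ H → e (w0, u) ∈ H → e (ζ, w0) ∈ H →
      pr e W0 W0 ≤ H := by
    intro H a1 a2 a3 a4
    refine pr_le (four_l a1 ?_) (four_r a2 ?_)
    · rcases hu with rfl | rfl
      · exact a3
      · have := mul_mem a3 a2
        rwa [e_mul, zz, mul_one] at this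
    · rcases hζ with rfl | rfl
      · exact a4
      · have := mul_mem a4 a1
        rwa [e_mul, zz, mul_one] at this
  have hk3 : k * k * k ∈ pr e W0 W0 := by
    refine h.centB hz (mem_centralizer_iff.2 fun b hb => ?_)
    refine mem_centralizer_singleton_iff.1 (gen (centralizer {k * k * k}) ?_ ?_ ?_ ?_ hb) <;>
      refine mem_centralizer_singleton_iff.2 (comm_of_cj ?_).symm <;> rw [cj_cj, cj_cj]
    · rw [k1, k1, k1]
    · rw [k2, k3, k5]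
    · rw [k4, k4, k4]
    · rw [k3, k5, k2]
  set y := k * k * k * k with hy
  have hact : ∀ b ∈ pr e W0 W0, y * b * y⁻¹ = k * b * k⁻¹ := fun b hb => by
    rw [hy, cj_cj, cj_of_comm (h.commB hk3 (conj_mem_of_mem_norm hkN hb))]
  have y3 : y ^ 3 = 1 := by
    have := h.sqB _ hk3
    calc y ^ 3 = (k * k * k * (k * k * k)) * (k * k * k * (k * k * k)) := by
          rw [hy]; simp only [pow_succ, pow_zero, one_mul, mul_assoc]
      _ = 1 := by rw [this, mul_one]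
  have hv2 : e (1, v0) * e (1, v0) = 1 := by rw [e_mul, vv, one_mul, e_one]
  have vk : e (1, v0) * k * (e (1, v0))⁻¹ = k⁻¹ := by
    rw [hk, ← mul_assoc, hv2, one_mul, mul_inv_rev, inv_eq_of_mul_eq_one_right hs.sq]
  have vy : e (1, v0) * y * (e (1, v0))⁻¹ = y⁻¹ := by
    rw [hy, cj_mul', cj_mul', cj_mul', vk]; group
  have y1 := (hact _ z1_mem).trans k1
  have y2 := (hact _ z2_mem).trans k2
  have y3' := (hact _ hd).trans k3
  have y4 := (hact _ hw').trans k4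
  have hdz : e (ζ, w0 * z0) ∈ pr e W0 W0 := e_mem (Z_le_W hζ) (mul_mem w_mem_W z_mem_W)
  have y5 := (hact _ hdz).trans k5
  have hyN : y ∈ normalizer (pr e W0 W0 : Set G) := mul_mem (mul_mem (mul_mem hkN hkN) hkN) hkN
  obtain ⟨β, hβ, hsβ⟩ := h.uniq hz hs v1_norm v1d
  have v12 : e (v0, 1) * e (1, v0) * (e (v0, 1))⁻¹ = e (1, v0) := by rw [e_cj]; simp
  obtain ⟨f, hf, hfy⟩ : ∃ f ∈ pr e W0 W0, e (v0, 1) * y * (e (v0, 1))⁻¹ = f * y := by
    have a1 : e (v0, 1) * k * (e (v0, 1))⁻¹ = (k * β * k⁻¹) * k := by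
      rw [inv_mul_cancel_right, hk, cj_mul', v12, hsβ, mul_assoc]
    refine ⟨_, pow_mul_inv_mem_of_norm (conj_mem_of_mem_norm hkN hβ) hkN 4, ?_⟩
    rw [← a1, hy]
    simp only [pow_succ, pow_zero, one_mul]
    group
  have f3 : f * (y * f * y⁻¹) * (y * (y * f * y⁻¹) * y⁻¹) = 1 := by
    calc f * (y * f * y⁻¹) * (y * (y * f * y⁻¹) * y⁻¹) = (f * y) ^ 3 * (y ^ 3)⁻¹ := by
          simp only [pow_succ, pow_zero, one_mul]; group
      _ = 1 := by rw [← hfy, conj_pow, y3]; simp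
  have fv : y * (e (1, v0) * f * (e (1, v0))⁻¹) * y⁻¹ = f := by
    have a1 : e (1, v0) * (f * y) * (e (1, v0))⁻¹ = (f * y)⁻¹ := by
      rw [← hfy, ← cj_cj, e_comm (a := 1) (b := v0) (c := v0) (d := 1) (by simp) (by simp), cj_cj, vy]; group
    rw [cj_mul', vy, mul_inv_rev f, inv_eq_of_mul_eq_one_right (h.sqB _ hf)] at a1
    calc _ = y * (e (1, v0) * f * (e (1, v0))⁻¹ * y⁻¹) := by group
      _ = f := by rw [a1]; group
  obtain ⟨c, hc, hcy, hcf⟩ : ∃ c ∈ pr e W0 W0, y * c * y⁻¹ = c ∧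
      (f = c ∨ f = c * e (1, z0) ∨ f = c * e (ζ, w0) ∨ f = c * e (ζ, w0 * z0)) := by
    obtain ⟨p, hp, q, hq, rfl⟩ := mem_pr.1 hf
    have key : ∀ ζ ∈ Z0, ∀ u ∈ Z0, ∀ p ∈ W0, ∀ q ∈ W0, ∃ a ∈ W0, ∃ b ∈ Z0, ((a ∈ Z0 ∧ b = 1) ∨
        (a * w0 ∈ Z0 ∧ b = u)) ∧ ((p = a ∧ q = b) ∨ (p = a ∧ q = b * z0) ∨ (p = a * ζ ∧ q = b * w0) ∨
          (p = a * ζ ∧ q = b * (w0 * z0))) := by decide +kernel
    obtain ⟨a, ha, b, hb, c1, c2⟩ := key ζ hζ u hu p hp q hq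
    have hZ1 : ∀ a ∈ Z0, y * e (a, 1) * y⁻¹ = e (a, 1) := by
      rintro _ (rfl | rfl)
      · rw [e_one]; simp
      · exact y1
    refine ⟨e (a, b), e_mem ha (Z_le_W hb), ?_, ?_⟩
    · rcases c1 with ⟨c1, rfl⟩ | ⟨c1, rfl⟩
      · exact hZ1 a c1
      · have : e (a, b) = e (a * w0, 1) * e (w0, b) := by rw [e_mul, mul_assoc, ww, mul_one, one_mul]
        rw [this, cj_mul', hZ1 _ c1, y4]
    · simp only [e_mul, mul_one]
      rcases c2 with ⟨rfl, rfl⟩ | ⟨rfl, rfl⟩ | ⟨rfl, rfl⟩ | ⟨rfl, rfl⟩ <;> simp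
  have hc1 : ∀ x ∈ pr e W0 W0, x * (y * x * y⁻¹) * (y * (y * x * y⁻¹) * y⁻¹) = 1 → f = c * x → f = x := by
    intro x hx h1 h2
    have hx1 := conj_mem_of_mem_norm hyN hx
    have hx2 := conj_mem_of_mem_norm hyN hx1
    rw [h2, cj_mul' y c, hcy, cj_mul' y c, hcy] at f3
    generalize y * (y * x * y⁻¹) * y⁻¹ = x2 at *
    generalize y * x * y⁻¹ = x1 at *
    have a1 := h.commB hc hx
    have a2 := h.commB hc hx1
    have a3 : c * x * (c * x1) * (c * x2) = c * (c * c) * (x * x1 * x2) := by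
      calc c * x * (c * x1) * (c * x2) = c * (x * c) * (x1 * c) * x2 := by group
        _ = c * c * (x * c) * x1 * x2 := by rw [← a2]; nth_rewrite 1 [← a1]; group
        _ = c * c * (c * x) * x1 * x2 := by rw [a1]
        _ = _ := by group
    rw [a3, h1, h.sqB _ hc, mul_one, mul_one] at f3
    rw [h2, f3, one_mul]
  have p1 : e (1, z0) * e (ζ, w0) * e (ζ, w0 * z0) = 1 := by
    rw [e_mul, e_mul, one_mul, hζ2, show z0 * w0 * (w0 * z0) = 1 by decide, e_one]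
  have p2 : e (ζ, w0) * e (ζ, w0 * z0) * e (1, z0) = 1 := by
    rw [e_mul, e_mul, mul_one, hζ2, show w0 * (w0 * z0) * z0 = 1 by decide, e_one]
  have p3 : e (ζ, w0 * z0) * e (1, z0) * e (ζ, w0) = 1 := by
    rw [e_mul, e_mul, mul_one, hζ2, show w0 * z0 * z0 * w0 = 1 by decide, e_one]
  have sw : ∀ a : G, a * y * a⁻¹ = y → y * a * y⁻¹ = a := fun a h1 => cj_of_comm (comm_of_cj h1).symm
  refine ⟨ζ, hζ, u, hu, ?_⟩
  rcases hcf with a | a | a | a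
  · have := hc1 1 (one_mem _) (by simp) (by rw [mul_one, a])
    rw [this, one_mul] at hfy
    exact ⟨1, one_mem _, y, y3, vy, y1, y4, sw _ hfy, y2, y3'⟩
  · have := hc1 _ z2_mem (by rw [y2, y3', p1]) a
    rw [this, e_cj, vzv, one_mul, inv_one, mul_one, y2, h.eq_iff] at fv
    exact absurd fv.2 (by decide)
  · have := hc1 _ hd (by rw [y3', y5, p2]) a
    rw [this, v2d, y5, h.eq_iff] at fv
    exact absurd fv.2 (by decide)
  · have := hc1 _ hdz (by rw [y5, y2, p3]) a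
    refine ⟨z0, z_mem_Z, y, y3, vy, y1, y4, sw _ ?_, y2, y3'⟩
    have a1 : e (1, z0) * y * (e (1, z0))⁻¹ = e (ζ, w0 * z0) * y := by
      have hz2 := inv_eq_of_mul_eq_one_right (h.sqB _ z2_mem)
      calc e (1, z0) * y * (e (1, z0))⁻¹ = e (1, z0) * (y * e (1, z0) * y⁻¹) * y := by rw [hz2]; group
        _ = _ := by rw [y2, e_mul, one_mul, show z0 * w0 = w0 * z0 by decide]
    rw [e_split, cj_cj, a1, cj_mul', hfy, this, e_cj, hζv, one_mul, inv_one, mul_one, ← mul_assoc,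
      h.sqB _ hdz, one_mul]

end Hyp

end Cfsg.Agent.QT0.Wr
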