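import Cfsg.Agent.QT0.WrB

/-! S1829, part C: fusion contradictions; the split case. -/

set_option autoImplicit false
set_option synthInstance.maxSize 2048

namespace Cfsg.Agent.QT0.Wr

open Subgroup Cfsg Cfsg.Agent.H92 Cfsg.Agent.H70

variable {G : Type*} [Group G] {e : P4 × P4 →* G} {t : G} {T : Subgroup G}

theorem ic {g a b : G} (h : g * a * g⁻¹ = b) : IsConj a b := isConj_iff.2 ⟨g, h⟩

theorem ic_e {a b c d : P4} (p q : P4) (h : p * a * p⁻¹ = c) (h' : q * b * q⁻¹ = d) :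
    IsConj (e (a, b)) (e (c, d)) := ic (g := e (p, q)) (by rw [e_cj, h, h'])

theorem ic_l {a c : P4} (ha : a ∈ V0) (hc : c ∈ V0) (h1 : a ≠ 1) (h2 : c ≠ 1) (b : P4) :
    IsConj (e (a, b)) (e (c, b)) := by
  obtain ⟨x, hx⟩ := conj_V a ha h1 c hc h2
  exact ic_e x 1 hx (by simp)

theorem vz_mem : v0 * z0 ∈ V0 := by decide
theorem v_ne : v0 ≠ 1 := by decide
theorem vz_ne : v0 * z0 ≠ 1 := by decide

namespace Hyp

variable (h : Hyp e t T)
include h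

theorem ic_t (a b : P4) : IsConj (e (a, b)) (e (b, a)) := ic (h.t_cj a b)

variable [Finite G]

theorem nic : ¬ IsConj (e (z0, 1)) (e (z0, z0)) := fun h1 => by
  obtain ⟨g, hg⟩ := isConj_iff.1 h1
  exact h.nconj g hg

theorem exists_y' (hz : IsChar 2 (centralizer {e (z0, z0)})) (hO : pResidual 2 G = ⊤) :
    ∃ u ∈ Z0, ∃ y : G, y ^ 3 = 1 ∧ e (1, v0) * y * (e (1, v0))⁻¹ = y⁻¹ ∧
    y * e (z0, 1) * y⁻¹ = e (z0, 1) ∧ y * e (w0, u) * y⁻¹ = e (w0, u) ∧ y * e (v0, 1) * y⁻¹ = e (v0, 1) ∧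
    y * e (1, z0) * y⁻¹ = e (1, w0) ∧ y * e (1, w0) * y⁻¹ = e (1, w0 * z0) := by
  obtain ⟨ζ, hζ, u, hu, b, hb, y, y3, vy, y1, y4, y5, y2, y6⟩ := h.exists_y hz hO
  rcases hζ with rfl | rfl <;> rcases hb with rfl | rfl
  · exact ⟨u, hu, y, y3, vy, y1, y4, y5, y2, y6⟩
  · exfalso
    have a1 : y * e (z0, z0) * y⁻¹ = e (z0, w0) := by
      rw [e_split, cj_mul', y1, y2, ← e_split]
    have a2 : y * e (v0, 1) * y⁻¹ = e (v0, w0 * z0) := by
      rw [← zz, ← mul_one v0, ← e_mul, cj_mul', y5, y2, e_mul, show z0 * w0 = w0 * z0 by decide]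
    exact h.nic ((((ic_l z_mem_V v_mem_V z_ne v_ne 1).trans (ic a2)).trans
      (ic_l v_mem_V z_mem_V v_ne z_ne _)).trans
        ((ic_e 1 v0 (by simp) vwzv).trans (ic a1).symm))
  · exfalso
    have a1 : y * e (v0, z0) * y⁻¹ = e (v0 * z0, w0) := by
      rw [e_split, cj_mul', y5, y2, e_mul, one_mul]
    exact h.nic ((((h.ic_t _ _).trans (ic y2)).trans (ic_l z_mem_V vz_mem z_ne vz_ne _)).trans
      ((ic a1).symm.trans (ic_l v_mem_V z_mem_V v_ne z_ne _)))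
  · exfalso
    have a2 : y * e (v0, 1) * y⁻¹ = e (v0 * z0, w0 * z0) := by
      rw [← zz, ← mul_one v0, ← e_mul, cj_mul', y5, y2, e_mul, show z0 * w0 = w0 * z0 by decide, mul_one]
    have hy : y ∈ normalizer (pr e V0 W0 : Set G) := by
      refine mem_normalizer_of_cj_le (cj_le_iff_le_cj_inv.2 ?_)
      have m : ∀ x, y * x * y⁻¹ ∈ pr e V0 W0 → x ∈ cj y⁻¹ (pr e V0 W0) := fun x hx => by
        rwa [mem_cj, inv_inv]
      have wz : w0 * z0 ∈ W0 := mul_mem w_mem_W z_mem_W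
      refine pr_le (four_l (m _ ?_) (m _ ?_)) (four_r (m _ ?_) (m _ ?_))
      · rw [y1]; exact e_mem z_mem_V (one_mem _)
      · rw [a2]; exact e_mem vz_mem wz
      · rw [y2]; exact e_mem z_mem_V w_mem_W
      · rw [← zz, ← one_mul w0, ← e_mul, cj_mul', y1, y6]
        exact mul_mem (e_mem z_mem_V (one_mem _)) (e_mem z_mem_V wz)
    have hx : ∀ x : P4, e (x, 1) ∈ normalizer (pr e V0 W0 : Set G) := fun x =>
      norm_pr (X' := ⊤) (Y' := D0) (fun p _ => norm_V p) norm_W (e_mem (mem_top _) (one_mem _))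
    obtain ⟨x, hx1⟩ := conj_V _ z_mem_V z_ne _ v_mem_V v_ne
    obtain ⟨x', hx2⟩ := conj_V _ vz_mem vz_ne _ z_mem_V z_ne
    refine h.nconj1 (mul_mem (mul_mem (inv_mem hy) (inv_mem hy)) (mul_mem (hx x') (mul_mem hy (hx x)))) ?_
    rw [cj_cj, cj_cj (e (x', 1)), cj_cj y, e_cj, hx1, one_mul, inv_one, mul_one, a2, e_cj, hx2, one_mul,
      inv_one, mul_one, cj_cj, cj_inv_of y6, cj_inv_of y2]

theorem plus (hO : pResidual 2 G = ⊤) {y : G} (y1 : y * e (z0, 1) * y⁻¹ = e (z0, 1))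
    (y4 : y * e (w0, 1) * y⁻¹ = e (w0, 1)) (y5 : y * e (v0, 1) * y⁻¹ = e (v0, 1))
    (y2 : y * e (1, z0) * y⁻¹ = e (1, w0)) : False := by
  have yD : ∀ p ∈ D0, y * e (p, 1) * y⁻¹ = e (p, 1) := fun p hp =>
    cj_of_comm (mem_centralizer_singleton_iff.1 (D_l (H := centralizer {y})
      (mem_centralizer_singleton_iff.2 (comm_of_cj y1).symm) (mem_centralizer_singleton_iff.2 (comm_of_cj y5).symm)
      (mem_centralizer_singleton_iff.2 (comm_of_cj y4).symm) p hp)).symm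
  have c1 : ∀ p ∈ D0, ∀ q ∈ D0, q * q = 1 → q ≠ 1 → IsConj (e (p, q)) (e (p, z0)) := by
    intro p hp q hq q2 q1
    have a : IsConj (e (p, w0)) (e (p, z0)) :=
      (ic (g := y) (by rw [e_split, cj_mul', yD p hp, y2, ← e_split])).symm
    rcases inv_D q hq q2 with b | rfl | rfl
    · obtain ⟨x, hx⟩ := conj_V q b q1 _ z_mem_V z_ne
      exact ic_e 1 x (by simp) hx
    · exact a
    · exact (ic_e 1 v0 (by simp) vwzv).trans a
  have ca : ∀ p ∈ D0, p * p = 1 → p ≠ 1 → IsConj (e (p, 1)) (e (z0, 1)) := fun p hp p2 p1 =>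
    ((h.ic_t _ _).trans (c1 1 (one_mem _) p hp p2 p1)).trans (h.ic_t _ _)
  have cz : ∀ p ∈ D0, ∀ q ∈ D0, e (p, q) * e (p, q) = 1 → p ≠ 1 → q ≠ 1 → IsConj (e (p, q)) (e (z0, z0)) := by
    intro p hp q hq h2 p1 q1
    rw [e_mul, h.eq_one] at h2
    exact ((c1 p hp q hq h2.2 q1).trans (h.ic_t _ _)).trans (c1 _ z_mem_D p hp h2.1 p1)
  have sqc : ∀ {a b : G}, IsConj a b → b * b = 1 → a * a = 1 := by
    intro a b hab h2
    obtain ⟨g, rfl⟩ := isConj_iff.1 hab.symm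
    rw [← cj_mul', h2]; simp
  have zz' : e (z0, z0) * e (z0, z0) = 1 := by rw [e_mul, zz, e_one]
  have nz : ∀ p ∈ D0, ∀ q ∈ D0, IsConj (e (p, q)) (e (z0, z0)) → p ≠ 1 := by
    rintro _ - q hq h1 rfl
    have h2 := sqc h1 zz'
    rw [e_mul, h.eq_one] at h2
    by_cases q1 : q = 1
    · rw [q1, e_one, isConj_one_right, h.eq_one] at h1
      exact z_ne h1.1
    · exact h.nic ((((ca q hq h2.2 q1).symm).trans (h.ic_t _ _)).trans h1)
  have nz' : ∀ p ∈ D0, ∀ q ∈ D0, IsConj (e (p, q)) (e (z0, z0)) → q ≠ 1 := fun p hp q hq h1 =>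
    nz q hq p hp ((h.ic_t _ _).trans h1)
  have ht1 : t ≠ 1 := fun h1 => h.ne_t 1 1 1 1 (by rw [h1, mul_one])
  have δt : ∀ d : P4, e (d, d) * t = t * e (d, d) := fun d => (h.sw d d).symm
  have δc : ∀ d : P4, d * d = 1 → IsConj (e (d, d) * t) t := fun d hd => by
    refine (ic (g := e (d, 1)) ?_).symm
    rw [e_inv, mul_assoc, h.sw, ← mul_assoc, e_mul, inv_one, mul_one, one_mul, inv_eq_of_mul_eq_one_right hd]
  obtain ⟨g, hg, hgT⟩ := h.transfer hO h.tt h.J_le h.relJ (h.pg (inf_le_left : T ⊓ centralizer {t} ≤ T))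
    fun q hq => mem_centralizer_singleton_iff.1 hq.2
  have key : ∀ g : G, (∀ d ∈ D0, g * e (d, d) * g⁻¹ ∈ T) → ∀ d ∈ D0, g * t * g⁻¹ ≠ e (d, 1) := by
    intro g hT d hd hs
    have d1 : d ≠ 1 := fun h1 => cj_ne_one ht1 (by rw [hs, h1, e_one])
    have d2 : d * d = 1 := by
      have := sqc (ic hs).symm h.tt
      rw [e_mul, h.eq_one] at this
      exact this.1
    have k1 : ∀ q ∈ V0, q ≠ 1 → ∃ a b, g * e (q, q) * g⁻¹ = e (a, b) ∧ a * d = 1 := by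
      intro q hq q1
      have hJ := h.mem_J_of_comm (hT q (V_le_D hq)) d1 (cj_of_comm (by rw [← hs, ← cj_mul', δt, cj_mul']))
      obtain ⟨a, ha, b, hb, h1⟩ := mem_pr.1 hJ
      have q2 := sq_V q hq
      have h2 : IsConj (e (a, b)) (e (z0, z0)) :=
        (ic h1).symm.trans (cz q (V_le_D hq) q (V_le_D hq) (by rw [e_mul, q2, e_one]) q1 q1)
      refine ⟨a, b, h1, ?_⟩
      by_contra h3
      have h4 : g * (e (q, q) * t) * g⁻¹ = e (a * d, b) := by rw [cj_mul', h1, hs, e_mul, mul_one]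
      have h5 : IsConj (e (a * d, b)) t := (ic h4).symm.trans (δc q q2)
      exact h.nic ((((ca d hd d2 d1).symm.trans (ic hs).symm).trans h5.symm).trans
        (cz _ (mul_mem ha hd) b hb (sqc h5 h.tt) h3 (nz' a ha b hb h2)))
    obtain ⟨a, b, h1, h2⟩ := k1 _ v_mem_V v_ne
    obtain ⟨a', b', h1', h2'⟩ := k1 _ z_mem_V z_ne
    obtain ⟨a'', b'', h1'', h2''⟩ := k1 _ vz_mem vz_ne
    rw [← e_mul, cj_mul', h1, h1', e_mul, h.eq_iff] at h1''
    rw [← h1''.1, mul_assoc, h2', mul_one] at h2''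
    rw [h2'', one_mul] at h2
    exact d1 h2
  have hT : ∀ d ∈ D0, g * e (d, d) * g⁻¹ ∈ T := fun d hd =>
    cj_le_iff.1 hgT _ ⟨h.J_le (e_mem hd hd), mem_centralizer_singleton_iff.2 (δt d)⟩
  obtain ⟨d1, hd1, d2, hd2, hs⟩ := mem_pr.1 hg
  by_cases n2 : d2 = 1
  · exact key g hT d1 hd1 (n2 ▸ hs)
  by_cases n1 : d1 = 1
  · refine key (t * g) (fun d hd => ?_) d2 hd2 (by rw [cj_cj, hs, h.t_cj, n1])
    rw [cj_cj]
    exact mul_mem (mul_mem h.t_mem (hT d hd)) (inv_mem h.t_mem)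
  have s2 := sqc (ic hs).symm h.tt
  have tz : IsConj t (e (z0, z0)) := (ic hs).trans (cz _ hd1 _ hd2 s2 n1 n2)
  rw [e_mul, h.eq_one] at s2
  have k1 : ∀ q ∈ D0, q * q = 1 → q ≠ 1 → ∀ a ∈ D0, ∀ b ∈ D0, g * e (q, q) * g⁻¹ = e (a, b) →
      a ≠ 1 ∧ a * d1 ≠ 1 := by
    intro q hq q2 q1 a ha b hb h1
    refine ⟨nz a ha b hb ((ic h1).symm.trans (cz q hq q hq (by rw [e_mul, q2, e_one]) q1 q1)), ?_⟩
    have h4 : g * (e (q, q) * t) * g⁻¹ = e (a * d1, b * d2) := by rw [cj_mul', h1, hs, e_mul]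
    exact nz _ (mul_mem ha hd1) _ (mul_mem hb hd2) (((ic h4).symm.trans (δc q q2)).trans tz)
  have k2 : ∀ q a b, g * e (q, q) * g⁻¹ = e (a, b) → a * d1 = d1 * a := by
    intro q a b h1
    have : e (a, b) * e (d1, d2) = e (d1, d2) * e (a, b) := by rw [← h1, ← hs, ← cj_mul', δt, cj_mul']
    rw [e_mul, e_mul, h.eq_iff] at this
    exact this.1
  have hvw := mul_mem v_mem_D w_mem_D
  have hsq : g * e (z0, z0) * g⁻¹ = g * e (v0 * w0, v0 * w0) * g⁻¹ * (g * e (v0 * w0, v0 * w0) * g⁻¹) := by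
    rw [← cj_mul', e_mul, vw_sq]
  have hk : g * e (v0 * w0, v0 * w0) * g⁻¹ ∉ pr e D0 D0 := by
    intro h1
    obtain ⟨a, ha, b, hb, h2⟩ := mem_pr.1 h1
    rw [h2, e_mul] at hsq
    have h3 := k1 _ z_mem_D zz z_ne _ (mul_mem ha ha) _ (mul_mem hb hb) hsq
    have k : ∀ a ∈ D0, ∀ d ∈ D0, d * d = 1 → d ≠ 1 → a * d = d * a → a * a ≠ 1 → a * a * d = 1 := by
      decide +kernel
    exact h3.2 (k a ha d1 hd1 s2.1 n1 (k2 _ _ _ h2) h3.1)
  obtain ⟨i1, hi1, i2, hi2, hi⟩ := mem_pr.1 (hsq ▸ h.mul_mem_J (hT _ hvw) (hT _ hvw) hk hk :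
    g * e (z0, z0) * g⁻¹ ∈ pr e D0 D0)
  have fin : ∀ q ∈ D0, q * q = 1 → q ≠ 1 → q * z0 ≠ 1 → g * e (q, q) * g⁻¹ ∉ pr e D0 D0 := by
    intro q hq q2 q1 q3 h1
    obtain ⟨a, ha, b, hb, h2⟩ := mem_pr.1 h1
    have h3 : g * e (q * z0, q * z0) * g⁻¹ = e (a * i1, b * i2) := by rw [← e_mul, cj_mul', h2, hi, e_mul]
    have h4 := k1 q hq q2 q1 a ha b hb h2
    have h5 := k1 _ (mul_mem hq z_mem_D) (by rw [mul_assoc, ← mul_assoc z0, ← mem_D0.1 hq, mul_assoc, zz,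
      mul_one, q2]) q3 _ (mul_mem ha hi1) _ (mul_mem hb hi2) h3
    have h6 := k1 _ z_mem_D zz z_ne _ hi1 _ hi2 hi
    have h7 : e (a, b) * e (a, b) = 1 := by rw [← h2, ← cj_mul', e_mul, q2, e_one]; simp
    have h8 : e (i1, i2) * e (i1, i2) = 1 := by rw [← hi, ← cj_mul', zz']; simp
    have h9 : e (a, b) * e (i1, i2) = e (i1, i2) * e (a, b) := by
      rw [← h2, ← hi, ← cj_mul', e_comm (mem_D0.1 hq) (mem_D0.1 hq), cj_mul']
    rw [e_mul, h.eq_one] at h7 h8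
    rw [e_mul, e_mul, h.eq_iff] at h9
    rcases four_in_D d1 hd1 s2.1 n1 i1 hi1 h8.1 h6.1 h6.2 (k2 _ _ _ hi) a ha h7.1 (k2 _ _ _ h2) h9.1 with
      r | r | r | r
    exacts [h4.1 r, h5.1 r, h4.2 r, h5.2 r]
  apply hk
  rw [← e_mul, cj_mul']
  exact h.mul_mem_J (hT _ v_mem_D) (hT _ w_mem_D) (fin _ v_mem_D vv v_ne vz_ne)
    (fin _ w_mem_D ww (by decide) (by decide))

end Hyp

end Cfsg.Agent.QT0.Wr
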